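import Cfsg.Agent.Lib.H87.FrP9e

set_option autoImplicit false

/-! A nonmonomial element on four coordinates gives all F4-type reflections. -/

open Matrix H96.Fr

namespace H87.FrP9

open scoped Quaternion

variable {ι F : Type*} [Fintype ι] [DecidableEq ι] [Field F] {K : Subgroup ((ι → F) ≃ₗ[F] (ι → F))}

theorem even_ext {n : ℕ} (hn : n + 2 ≤ Fintype.card ι) (x y : Fin n → ι) (hx : Function.Injective x)
    (hy : Function.Injective y) : ∃ σ : Equiv.Perm ι, Equiv.Perm.sign σ = 1 ∧ ∀ i, σ (x i) = y i := by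
  have h1 := Equiv.Perm.isMultiplyPretransitive ι n
  obtain ⟨σ, hσ⟩ := h1.exists_smul_eq ⟨x, hx⟩ ⟨y, hy⟩
  have h2 : ∀ i, σ (x i) = y i := by
    intro i
    have h3 := DFunLike.congr_fun hσ i
    exact h3
  rcases Int.units_eq_one_or (Equiv.Perm.sign σ) with h | h
  · exact ⟨σ, h, h2⟩
  · have h3 : 1 < (Finset.univ \ Finset.univ.image x : Finset ι).card := by
      have h4 := Finset.le_card_sdiff (Finset.univ.image x) (Finset.univ : Finset ι)
      have h5 : (Finset.univ.image x).card ≤ n := Finset.card_image_le.trans (by simp)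
      rw [Finset.card_univ] at h4
      omega
    obtain ⟨p, hp, q, hq, hpq⟩ := Finset.one_lt_card.1 h3
    have hp' : ∀ i, x i ≠ p := by
      intro i hi
      rw [Finset.mem_sdiff] at hp
      exact hp.2 (Finset.mem_image.2 ⟨i, Finset.mem_univ _, hi⟩)
    have hq' : ∀ i, x i ≠ q := by
      intro i hi
      rw [Finset.mem_sdiff] at hq
      exact hq.2 (Finset.mem_image.2 ⟨i, Finset.mem_univ _, hi⟩)
    refine ⟨σ * Equiv.swap p q, ?_, fun i => ?_⟩
    · rw [Equiv.Perm.sign_mul, h, Equiv.Perm.sign_swap hpq]; rfl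
    · rw [Equiv.Perm.mul_apply, Equiv.swap_apply_of_ne_of_ne (hp' i) (hq' i), h2]

/-- images of unit vectors under an element supported on `I` -/
theorem off {g : (ι → F) ≃ₗ[F] (ι → F)} (hi : Iso g) {I : Finset ι} (hs : Sup g I) (k : ι) {j : ι} (hj : j ∉ I) :
    g (e k) j = (e k : ι → F) j := by
  rw [← dot_e (g (e k)) j, ← dot_e (e k) j]
  conv_lhs => rw [← hs j hj]
  rw [hi]

theorem exists_half (D : Dat K) (h2 : (2 : F) ≠ 0) (hN : 6 ≤ Fintype.card ι) (hm : MonLe K 3)
    {g : (ι → F) ≃ₗ[F] (ι → F)} (hg : g ∈ K) {I : Finset ι} (hs : Sup g I) (hn : ¬ Mon g)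
    {f : Fin 4 → ι} (hf : Function.Injective f) (hfI : ∀ j, j ∈ I ↔ ∃ i, j = f i) {l : ι} (hl : ∀ i, l ≠ f i) :
    Half K f := by
  by_contra hH
  have hi := D.iso g hg
  have hlI : l ∉ I := by rw [hfI]; push Not; exact hl
  have hoff : ∀ k j, (∀ i, j ≠ f i) → g (e k) j = (e k : ι → F) j := by
    intro k j hj
    exact off hi hs k (by rw [hfI]; push Not; exact hj)
  have hgP : ∀ v : ι → F, Phi K v → Phi K (g v) := fun v hv => phi_map D hg (j := l) (k := l) (Or.inl (hs l hlI)) hv
  rw [Mon] at hn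
  push Not at hn
  obtain ⟨i0, hi0⟩ := hn
  have hi0I : i0 ∈ I := by
    by_contra h
    exact (hi0 i0).1 (hs i0 h)
  have ne_of : ∀ {k j : ι}, k ∈ I → (∀ i, j ≠ f i) → (e k : ι → F) j = 0 := by
    intro k j hk hj
    have h3 : j ≠ k := by
      rintro rfl
      obtain ⟨i, hi⟩ := (hfI j).1 hk
      exact hj i hi
    simp [e, h3]
  set u := g (e i0) with hu
  have hus : ∀ j, (∀ i, j ≠ f i) → u j = 0 := fun j hj => (hoff i0 j hj).trans (ne_of hi0I hj)
  have huP : Phi K u := hgP _ (phi_e D i0)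
  obtain ⟨u3, u2⟩ := two D h2 hm hf hl hH huP hus
  have H4 : ∀ s : Fin 4, s = 0 ∨ s = 1 ∨ s = 2 ∨ s = 3 := by decide
  have hun : u (f 0) * u (f 0) + u (f 1) * u (f 1) + u (f 2) * u (f 2) + u (f 3) * u (f 3) = 1 := by
    have h3 := huP.1
    rw [eq_vec hf hus, vec_dot hf] at h3
    exact h3
  -- two nonzero coordinates
  obtain ⟨s, t, hst, hst0⟩ : ∃ s t : Fin 4, s ≠ t ∧ u (f s) * u (f t) ≠ 0 := by
    by_contra hcon
    push Not at hcon
    obtain ⟨s, hs0⟩ : ∃ s : Fin 4, u (f s) ≠ 0 := by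
      by_contra h3
      push Not at h3
      rw [h3 0, h3 1, h3 2, h3 3] at hun
      simp at hun
    have h4 : ∀ t, t ≠ s → u (f t) = 0 := fun t ht => (mul_eq_zero.1 (hcon s t ht.symm)).resolve_left hs0
    have h5 : u (f s) * u (f s) = 1 := by
      rcases H4 s with rfl | rfl | rfl | rfl
      · rw [h4 1 (by decide), h4 2 (by decide), h4 3 (by decide)] at hun; simpa using hun
      · rw [h4 0 (by decide), h4 2 (by decide), h4 3 (by decide)] at hun; simpa using hun
      · rw [h4 0 (by decide), h4 1 (by decide), h4 3 (by decide)] at hun; simpa using hun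
      · rw [h4 0 (by decide), h4 1 (by decide), h4 2 (by decide)] at hun; simpa using hun
    have h6 : u = u (f s) • e (f s) := by
      funext j
      by_cases hj : ∀ i, j ≠ f i
      · rw [hus j hj]; simp [e, hj s]
      · push Not at hj
        obtain ⟨i, rfl⟩ := hj
        by_cases hi : i = s
        · subst hi; simp [e]
        · rw [h4 i hi]
          simp [e, hf.ne hi]
    rcases mul_self_eq_one_iff.1 h5 with h7 | h7
    · rw [h7, one_smul] at h6
      exact (hi0 (f s)).1 h6
    · rw [h7, neg_smul, one_smul] at h6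
      exact (hi0 (f s)).2 h6
  obtain ⟨ha2, hb2⟩ := u2 s t hst hst0
  have ha0 : u (f s) ≠ 0 := left_ne_zero_of_mul hst0
  have hb0 : u (f t) ≠ 0 := right_ne_zero_of_mul hst0
  obtain ⟨r, hrs, hrt⟩ : ∃ r : Fin 4, s ≠ r ∧ t ≠ r := by
    have h3 : ∀ s t : Fin 4, ∃ r : Fin 4, s ≠ r ∧ t ≠ r := by decide
    exact h3 s t
  have hr0 : ∀ r, s ≠ r → t ≠ r → u (f r) = 0 := fun r h3 h4 =>
    (mul_eq_zero.1 (u3 s t r hst h3 h4)).resolve_left hst0
  have hu' : u = u (f s) • e (f s) + u (f t) • e (f t) := by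
    funext j
    by_cases hj : ∀ i, j ≠ f i
    · rw [hus j hj]; simp [e, hj s, hj t]
    · push Not at hj
      obtain ⟨i, rfl⟩ := hj
      by_cases h3 : i = s
      · subst h3; simp [e, hf.ne hst]
      · by_cases h4 : i = t
        · subst h4; simp [e, hf.ne h3]
        · rw [hr0 i (Ne.symm h3) (Ne.symm h4)]
          simp [e, hf.ne h3, hf.ne h4]
  -- another basis vector
  obtain ⟨k, hk⟩ : ∃ k, g (e k) (f r) ≠ 0 := by
    by_contra hcon
    push Not at hcon
    have h3 : ∀ k, g⁻¹ (e (f r)) k = 0 := by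
      intro k
      rw [← dot_e (g⁻¹ (e (f r))) k, ← hi]
      have h4 : g (g⁻¹ (e (f r))) = (e (f r) : ι → F) := by
        rw [← LinearEquiv.mul_apply, mul_inv_cancel]; rfl
      rw [h4, dotProduct_comm, dot_e, hcon]
    have h4 : g⁻¹ (e (f r)) = (0 : ι → F) := funext h3
    have h5 : (e (f r) : ι → F) = 0 := by
      have h6 : g (g⁻¹ (e (f r))) = (e (f r) : ι → F) := by
        rw [← LinearEquiv.mul_apply, mul_inv_cancel]; rfl
      rw [← h6, h4, map_zero]
    have h6 := congrFun h5 (f r)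
    simp [e] at h6
  have hki : k ≠ i0 := by
    rintro rfl
    exact hk (hr0 r hrs hrt)
  have hkI : k ∈ I := by
    by_contra h
    apply hk
    rw [hs k h]
    have h3 : f r ≠ k := by
      rintro rfl
      exact h ((hfI _).2 ⟨r, rfl⟩)
    simp [e, h3]
  set u' := g (e k) with hu'd
  have hus' : ∀ j, (∀ i, j ≠ f i) → u' j = 0 := fun j hj => (hoff k j hj).trans (ne_of hkI hj)
  have huP' : Phi K u' := hgP _ (phi_e D k)
  obtain ⟨v3, -⟩ := two D h2 hm hf hl hH huP' hus'
  have hort : u (f s) * u' (f s) + u (f t) * u' (f t) = 0 := by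
    have h3 : u' ⬝ᵥ u = 0 := by
      rw [hu'd, hu, hi, dot_e]
      simp [e, Ne.symm hki]
    rw [hu', dotProduct_add, dotProduct_smul, dotProduct_smul, dot_e, dot_e] at h3
    simpa using h3
  have hs0 : u' (f s) = 0 := by
    by_contra h3
    have h4 : u' (f t) ≠ 0 := by
      intro h4
      rw [h4, mul_zero, add_zero] at hort
      exact (mul_ne_zero ha0 h3) hort
    exact (mul_ne_zero (mul_ne_zero h3 h4) hk) (v3 s t r hst hrs hrt)
  have ht0 : u' (f t) = 0 := by
    rw [hs0, mul_zero, zero_add] at hort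
    exact (mul_eq_zero.1 hort).resolve_left hb0
  -- the contradiction
  obtain ⟨σ, hσ, hσ'⟩ := even_ext (n := 2) (by omega) ![f s, f t] ![i0, k]
    (by
      intro x y hxy
      fin_cases x <;> fin_cases y
      · rfl
      · exact absurd (hf hxy) hst
      · exact absurd (hf hxy) hst.symm
      · rfl)
    (by
      intro x y hxy
      fin_cases x <;> fin_cases y
      · rfl
      · exact absurd hxy hki.symm
      · exact absurd hxy hki
      · rfl)
  have e0 : σ (f s) = i0 := hσ' 0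
  have e1 : σ (f t) = k := hσ' 1
  have hw : Phi K (pm σ u) := phi_map D (D.pm σ hσ) (j := f s) (k := i0) (Or.inl (by rw [pm_e, e0])) huP
  have hw2 : pm σ u = u (f s) • e i0 + u (f t) • e k := by
    conv_lhs => rw [hu']
    rw [map_add, map_smul, map_smul, pm_e, pm_e, e0, e1]
  rw [hw2] at hw
  have hw3 := hgP _ hw
  rw [map_add, map_smul, map_smul, ← hu, ← hu'd] at hw3
  obtain ⟨w3, -⟩ := two D h2 hm hf hl hH hw3 (by
    intro j hj
    rw [Pi.add_apply, Pi.smul_apply, Pi.smul_apply, hus j hj, hus' j hj]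
    simp)
  have h5 := w3 s t r hst hrs hrt
  simp only [Pi.add_apply, Pi.smul_apply, smul_eq_mul, hs0, ht0, hr0 r hrs hrt, mul_zero, add_zero, zero_add] at h5
  exact (mul_ne_zero (mul_ne_zero (mul_ne_zero ha0 ha0) (mul_ne_zero ha0 hb0)) (mul_ne_zero hb0 hk)) h5

theorem phi_flip (D : Dat K) {h : ι → F} (hh : Phi K h) (s : Finset ι) :
    Phi K (fun j => if j ∈ s then - h j else h j) := by
  induction s using Finset.induction_on with
  | empty => simpa using hh
  | insert a s ha ih =>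
    have h1 := phi_rf ih (phi_e D a)
    have h2 : rf (e a) (fun j => if j ∈ s then - h j else h j) = fun j => if j ∈ insert a s then - h j else h j := by
      funext j
      rw [rf_e]
      by_cases hj : j = a
      · subst hj; simp [ha]
      · simp [hj]
    rwa [h2] at h1

theorem f4_ident (D : Dat K) (h2 : (2 : F) ≠ 0) (hN : 6 ≤ Fintype.card ι) (hm : MonLe K 3)
    {g : (ι → F) ≃ₗ[F] (ι → F)} (hg : g ∈ K) {I : Finset ι} (hI : I.card = 4) (hs : Sup g I) (hn : ¬ Mon g) : F4 K := by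
  classical
  have par : ∀ J : Finset ι, J.card = 4 → ∃ f : Fin 4 → ι, Function.Injective f ∧ ∀ j, j ∈ J ↔ ∃ i, j = f i := by
    intro J hJ
    refine ⟨fun i => ((Finset.equivFinOfCardEq hJ).symm i : ι), ?_, ?_⟩
    · intro a b hab
      exact (Finset.equivFinOfCardEq hJ).symm.injective (Subtype.ext hab)
    · intro j
      constructor
      · intro hj
        exact ⟨Finset.equivFinOfCardEq hJ ⟨j, hj⟩, by simp⟩
      · rintro ⟨i, rfl⟩
        exact ((Finset.equivFinOfCardEq hJ).symm i).2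
  obtain ⟨f, hf, hfI⟩ := par I hI
  obtain ⟨l, hl⟩ : ∃ l, l ∉ I := by
    by_contra hcon
    push Not at hcon
    have h3 : Fintype.card ι ≤ I.card := by
      rw [← Finset.card_univ]
      exact Finset.card_le_card (fun j _ => hcon j)
    omega
  have hl' : ∀ i, l ≠ f i := by
    intro i hi
    exact hl ((hfI l).2 ⟨i, hi⟩)
  obtain ⟨w, hw, w0, w1, w2, w3⟩ := exists_half D h2 hN hm hg hs hn hf hfI hl'
  rintro v ⟨J, hJ, hv0, hv4⟩
  obtain ⟨f', hf', hfJ⟩ := par J hJ
  obtain ⟨σ, hσ, hσ'⟩ := even_ext (n := 4) (by omega) f f' hf hf'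
  have hp : Phi K (pm σ (vec f w)) :=
    phi_map D (D.pm σ hσ) (j := f 0) (k := σ (f 0)) (Or.inl (by rw [pm_e])) hw
  set h := pm σ (vec f w) with hh
  have hq := qq_vec hf w
  have q0 : vec f w (f 0) = w.re := congrArg QuaternionAlgebra.re hq
  have q1 : vec f w (f 1) = w.imI := congrArg QuaternionAlgebra.imI hq
  have q2 : vec f w (f 2) = w.imJ := congrArg QuaternionAlgebra.imJ hq
  have q3 : vec f w (f 3) = w.imK := congrArg QuaternionAlgebra.imK hq
  have H4 : ∀ s : Fin 4, s = 0 ∨ s = 1 ∨ s = 2 ∨ s = 3 := by decide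
  have h4 : ∀ j ∈ J, 4 * (h j * h j) = 1 := by
    intro j hj
    obtain ⟨i, rfl⟩ := (hfJ j).1 hj
    rw [hh, pm_apply, ← hσ' i, Equiv.symm_apply_apply]
    rcases H4 i with rfl | rfl | rfl | rfl
    · rw [q0, w0]
    · rw [q1, w1]
    · rw [q2, w2]
    · rw [q3, w3]
  have h0 : ∀ j, j ∉ J → h j = 0 := by
    intro j hj
    rw [hh, pm_apply]
    apply vec_ne
    intro i hi
    apply hj
    rw [hfJ]
    exact ⟨i, by rw [← hσ' i, ← hi, Equiv.apply_symm_apply]⟩
  have key := phi_flip D hp (Finset.univ.filter fun j => v j ≠ h j)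
  have h5 : (fun j => if j ∈ (Finset.univ.filter fun j => v j ≠ h j) then - h j else h j) = v := by
    funext j
    by_cases h6 : v j = h j
    · simp [h6]
    · have h7 : j ∈ J := by
        by_contra h7
        exact h6 (by rw [hv0 j h7, h0 j h7])
      have h8 : (v j - h j) * (v j + h j) = 0 := by
        have h9 : 2 * (2 * ((v j - h j) * (v j + h j))) = 0 := by linear_combination hv4 j h7 - h4 j h7
        exact (mul_eq_zero.1 ((mul_eq_zero.1 h9).resolve_left h2)).resolve_left h2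
      have h10 : v j + h j = 0 := (mul_eq_zero.1 h8).resolve_left (sub_ne_zero.2 h6)
      have h11 : v j = - h j := eq_neg_of_add_eq_zero_left h10
      simp only [Finset.mem_filter, Finset.mem_univ, true_and, h6, ne_eq, not_false_eq_true, if_true]
      exact h11.symm
  rwa [h5] at key

end H87.FrP9
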