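import Cfsg.Agent.Lib.H96.FrDef

set_option autoImplicit false

/-! Reflections in unit vectors and the set `Phi K`. -/

open Matrix H96.Fr

namespace H87.FrP9

variable {ι F : Type*} [Fintype ι] [DecidableEq ι] [Field F] {K : Subgroup ((ι → F) ≃ₗ[F] (ι → F))}

theorem e_dot (i : ι) : (e i : ι → F) ⬝ᵥ e i = 1 := by simp [e]

theorem dot_e (x : ι → F) (i : ι) : x ⬝ᵥ e i = x i := by simp [e]

theorem rf_e (i : ι) (x : ι → F) (k : ι) : rf (e i) x k = if k = i then - x k else x k := by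
  rw [rf_apply (e_dot i), dot_e]
  by_cases h : k = i
  · subst h; simp [e]; ring
  · simp [e, h]

theorem rf_rf_e {i j : ι} (h : i ≠ j) : rf (e i) * rf (e j) = (sg i j : (ι → F) ≃ₗ[F] (ι → F)) := by
  apply LinearEquiv.ext
  intro x
  funext k
  rw [LinearEquiv.mul_apply, rf_e, rf_e, sg_apply]
  by_cases h1 : k = i
  · subst h1; simp [h]
  · by_cases h2 : k = j
    · subst h2; simp [h1]
    · simp [h1, h2]

theorem rf_self {v : ι → F} (hv : v ⬝ᵥ v = 1) : rf v * rf v = 1 := by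
  apply LinearEquiv.ext
  intro x
  rw [LinearEquiv.mul_apply, rf_apply hv, rf_apply hv]
  exact rfm_rfm hv x

theorem rf_inv {v : ι → F} (hv : v ⬝ᵥ v = 1) : (rf v)⁻¹ = rf v := by
  rw [inv_eq_iff_mul_eq_one]; exact rf_self hv

theorem rf_iso {v : ι → F} (hv : v ⬝ᵥ v = 1) : Iso (rf v) := by
  intro x y
  rw [rf_apply hv, rf_apply hv]
  simp only [sub_dotProduct, dotProduct_sub, smul_dotProduct, dotProduct_smul, smul_eq_mul, hv]
  rw [dotProduct_comm v y]
  ring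

theorem rf_map {x : (ι → F) ≃ₗ[F] (ι → F)} (hx : Iso x) {v : ι → F} (hv : v ⬝ᵥ v = 1) :
    rf (x v) = x * rf v * x⁻¹ := by
  have h1 : x v ⬝ᵥ x v = 1 := by rw [hx, hv]
  apply LinearEquiv.ext
  intro y
  have h2 : x (x⁻¹ y) = y := by rw [← LinearEquiv.mul_apply, mul_inv_cancel]; rfl
  rw [LinearEquiv.mul_apply, LinearEquiv.mul_apply, rf_apply h1, rf_apply hv, map_sub, map_smul, h2]
  have h3 : y ⬝ᵥ x v = x⁻¹ y ⬝ᵥ v := by
    have := hx (x⁻¹ y) v
    rwa [h2] at this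
  rw [h3]

theorem rf_neg {v : ι → F} (hv : v ⬝ᵥ v = 1) : rf (-v) = rf v := by
  have h1 : (-v) ⬝ᵥ (-v) = 1 := by rw [neg_dotProduct_neg, hv]
  apply LinearEquiv.ext
  intro y
  rw [rf_apply h1, rf_apply hv, dotProduct_neg]
  simp

theorem phi_e (D : Dat K) (i : ι) : Phi K (e i) := by
  refine ⟨e_dot i, fun j => ?_⟩
  by_cases h : i = j
  · subst h
    rw [rf_self (e_dot i)]
    exact K.one_mem
  · rw [rf_rf_e h]
    exact D.sg i j h

theorem phi_rf {v w : ι → F} (hv : Phi K v) (hw : Phi K w) : Phi K (rf w v) := by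
  refine ⟨?_, fun j => ?_⟩
  · rw [rf_iso hw.1, hv.1]
  · rw [rf_map (rf_iso hw.1) hv.1, rf_inv hw.1]
    have h1 : rf w * rf v * rf w * rf (e j) =
        (rf w * rf (e j)) * (rf v * rf (e j))⁻¹ * (rf w * rf (e j)) := by
      rw [_root_.mul_inv_rev, rf_inv hv.1, rf_inv (e_dot j)]
      have h2 : rf (e j) * rf (e j) = (1 : (ι → F) ≃ₗ[F] (ι → F)) := rf_self (e_dot j)
      calc rf w * rf v * rf w * rf (e j) = rf w * 1 * rf v * rf w * rf (e j) := by rw [mul_one]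
        _ = _ := by rw [← h2]; simp only [mul_assoc]
    rw [h1]
    exact K.mul_mem (K.mul_mem (hw.2 j) (K.inv_mem (hv.2 j))) (hw.2 j)

theorem phi_map (D : Dat K) {x : (ι → F) ≃ₗ[F] (ι → F)} (hx : x ∈ K) {j k : ι}
    (h : x (e j) = e k ∨ x (e j) = - e k) {v : ι → F} (hv : Phi K v) : Phi K (x v) := by
  have hi := D.iso x hx
  refine ⟨by rw [hi, hv.1], fun l => ?_⟩
  have h1 : rf (e k) = x * rf (e j) * x⁻¹ := by
    rw [← rf_map hi (e_dot j)]
    rcases h with h | h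
    · rw [h]
    · rw [h, rf_neg (e_dot k)]
  have h2 : rf (x v) * rf (e l) = (x * (rf v * rf (e j)) * x⁻¹) * (rf (e k) * rf (e l)) := by
    rw [rf_map hi hv.1, h1]
    have h2 : rf (e j) * rf (e j) = (1 : (ι → F) ≃ₗ[F] (ι → F)) := rf_self (e_dot j)
    calc x * rf v * x⁻¹ * rf (e l) = x * rf v * 1 * x⁻¹ * rf (e l) := by rw [mul_one]
      _ = _ := by rw [← h2]; simp only [mul_assoc, inv_mul_cancel_left]
  rw [h2]
  exact K.mul_mem (K.mul_mem (K.mul_mem hx (hv.2 j)) (K.inv_mem hx)) ((phi_e D k).2 l)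

end H87.FrP9
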