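import Cfsg.Agent.Lib.H87.FrP9a

set_option autoImplicit false

/-! Four coordinates as quaternions. -/

open Matrix H96.Fr

namespace H87.FrP9

open scoped Quaternion

variable {ι F : Type*} [Fintype ι] [DecidableEq ι] [Field F] {K : Subgroup ((ι → F) ≃ₗ[F] (ι → F))}

/-- the quaternion of the coordinates `f 0, …, f 3` -/
def qq (f : Fin 4 → ι) (x : ι → F) : ℍ[F] := ⟨x (f 0), x (f 1), x (f 2), x (f 3)⟩

/-- the vector of a quaternion -/
def vec (f : Fin 4 → ι) (u : ℍ[F]) : ι → F := u.re • e (f 0) + u.imI • e (f 1) + u.imJ • e (f 2) + u.imK • e (f 3)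

/-- `x ↦ a x b` on four coordinates -/
def act (f : Fin 4 → ι) (a b : ℍ[F]) (x : ι → F) : ι → F := x - vec f (qq f x) + vec f (a * qq f x * b)

variable {f : Fin 4 → ι}

theorem qq_re (x : ι → F) : (qq f x).re = x (f 0) := rfl
theorem qq_imI (x : ι → F) : (qq f x).imI = x (f 1) := rfl
theorem qq_imJ (x : ι → F) : (qq f x).imJ = x (f 2) := rfl
theorem qq_imK (x : ι → F) : (qq f x).imK = x (f 3) := rfl

theorem qq_sub (x y : ι → F) : qq f (x - y) = qq f x - qq f y := by
  ext <;> rfl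

theorem qq_add (x y : ι → F) : qq f (x + y) = qq f x + qq f y := by
  ext <;> rfl

theorem qq_vec (hf : Function.Injective f) (u : ℍ[F]) : qq f (vec f u) = u := by
  have h01 := hf.ne (show (0 : Fin 4) ≠ 1 by decide)
  have h02 := hf.ne (show (0 : Fin 4) ≠ 2 by decide)
  have h03 := hf.ne (show (0 : Fin 4) ≠ 3 by decide)
  have h12 := hf.ne (show (1 : Fin 4) ≠ 2 by decide)
  have h13 := hf.ne (show (1 : Fin 4) ≠ 3 by decide)
  have h23 := hf.ne (show (2 : Fin 4) ≠ 3 by decide)
  ext <;> simp [qq, vec, e, h01, h02, h03, h12, h13, h23, h01.symm, h02.symm, h03.symm, h12.symm, h13.symm, h23.symm]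

theorem qq_act (hf : Function.Injective f) (a b : ℍ[F]) (x : ι → F) : qq f (act f a b x) = a * qq f x * b := by
  rw [act, qq_add, qq_sub, qq_vec hf, qq_vec hf, sub_self, zero_add]

theorem act_act (hf : Function.Injective f) (a b c d : ℍ[F]) (x : ι → F) :
    act f a b (act f c d x) = act f (a * c) (d * b) x := by
  have h := qq_act hf c d x
  rw [act, h, act, act]
  have h1 : a * (c * qq f x * d) * b = a * c * qq f x * (d * b) := by simp only [mul_assoc]
  rw [h1]
  abel

theorem vec_ne {u : ℍ[F]} {j : ι} (hj : ∀ i, j ≠ f i) : vec f u j = 0 := by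
  simp [vec, e, hj]

theorem eq_vec {x : ι → F} (hf : Function.Injective f) (hx : ∀ j, (∀ i, j ≠ f i) → x j = 0) : x = vec f (qq f x) := by
  have h01 := hf.ne (show (0 : Fin 4) ≠ 1 by decide)
  have h02 := hf.ne (show (0 : Fin 4) ≠ 2 by decide)
  have h03 := hf.ne (show (0 : Fin 4) ≠ 3 by decide)
  have h12 := hf.ne (show (1 : Fin 4) ≠ 2 by decide)
  have h13 := hf.ne (show (1 : Fin 4) ≠ 3 by decide)
  have h23 := hf.ne (show (2 : Fin 4) ≠ 3 by decide)
  funext j
  by_cases hj : ∀ i, j ≠ f i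
  · rw [hx j hj, vec_ne hj]
  · push Not at hj
    obtain ⟨i, rfl⟩ := hj
    fin_cases i <;>
      simp [qq, vec, e, h01, h02, h03, h12, h13, h23, h01.symm, h02.symm, h03.symm, h12.symm, h13.symm, h23.symm]

theorem dot_vec (y : ι → F) (u : ℍ[F]) :
    y ⬝ᵥ vec f u = y (f 0) * u.re + y (f 1) * u.imI + y (f 2) * u.imJ + y (f 3) * u.imK := by
  simp only [vec, dotProduct_add, dotProduct_smul, dot_e, smul_eq_mul]
  ring

theorem vec_dot (hf : Function.Injective f) (u w : ℍ[F]) :
    vec f u ⬝ᵥ vec f w = u.re * w.re + u.imI * w.imI + u.imJ * w.imJ + u.imK * w.imK := by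
  rw [dot_vec]
  have h := qq_vec hf u
  have h0 := congrArg QuaternionAlgebra.re h
  have h1 := congrArg QuaternionAlgebra.imI h
  have h2 := congrArg QuaternionAlgebra.imJ h
  have h3 := congrArg QuaternionAlgebra.imK h
  simp only [qq] at h0 h1 h2 h3
  rw [h0, h1, h2, h3]

/-- some element of `K` acts as `x ↦ a x b` -/
def PP (K : Subgroup ((ι → F) ≃ₗ[F] (ι → F))) (f : Fin 4 → ι) (a b : ℍ[F]) : Prop :=
  ∃ g ∈ K, ∀ x, g x = act f a b x

theorem PP.mul (hf : Function.Injective f) {a b c d : ℍ[F]} (h1 : PP K f a b) (h2 : PP K f c d) :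
    PP K f (a * c) (d * b) := by
  obtain ⟨g, hg, h⟩ := h1
  obtain ⟨g', hg', h'⟩ := h2
  refine ⟨g * g', K.mul_mem hg hg', fun x => ?_⟩
  rw [LinearEquiv.mul_apply, h, h', act_act hf]

theorem act_one (x : ι → F) : act f 1 1 x = x := by
  rw [act, one_mul, mul_one, sub_add_cancel]

theorem PP.inv (hf : Function.Injective f) {a b c d : ℍ[F]} (h1 : PP K f a b) (h2 : a * c = 1) (h3 : d * b = 1) :
    PP K f c d := by
  obtain ⟨g, hg, h⟩ := h1
  refine ⟨g⁻¹, K.inv_mem hg, fun x => ?_⟩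
  have h4 : g (act f c d x) = x := by
    rw [h, act_act hf, h2, h3, act_one]
  calc g⁻¹ x = g⁻¹ (g (act f c d x)) := by rw [h4]
    _ = (g⁻¹ * g) (act f c d x) := rfl
    _ = _ := by rw [inv_mul_cancel]; rfl

theorem act_e0 (hf : Function.Injective f) (a b : ℍ[F]) : act f a b (e (f 0)) = vec f (a * b) := by
  have h : (e (f 0) : ι → F) = vec f 1 := by simp [vec]
  rw [h, act, qq_vec hf, sub_self, zero_add, mul_one]

theorem act_ne (a b : ℍ[F]) {j : ι} (hj : ∀ i, j ≠ f i) : act f a b (e j) = e j := by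
  have h : qq f (e j : ι → F) = 0 := by
    ext <;> simp [qq, e, fun i => (hj i).symm]
  rw [act, h]
  simp [vec]

/-- `x ↦ v x v` -/
theorem rf_act (hf : Function.Injective f) {v : ι → F} (hv : v ⬝ᵥ v = 1) (hs : ∀ j, (∀ i, j ≠ f i) → v j = 0)
    (x : ι → F) : (rf v * rf (e (f 0)) : (ι → F) ≃ₗ[F] (ι → F)) x = act f (qq f v) (qq f v) x := by
  have h01 := hf.ne (show (0 : Fin 4) ≠ 1 by decide)
  have h02 := hf.ne (show (0 : Fin 4) ≠ 2 by decide)
  have h03 := hf.ne (show (0 : Fin 4) ≠ 3 by decide)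
  have h12 := hf.ne (show (1 : Fin 4) ≠ 2 by decide)
  have h13 := hf.ne (show (1 : Fin 4) ≠ 3 by decide)
  have h23 := hf.ne (show (2 : Fin 4) ≠ 3 by decide)
  have hvv := eq_vec hf hs
  have hN : v (f 0) * v (f 0) + v (f 1) * v (f 1) + v (f 2) * v (f 2) + v (f 3) * v (f 3) = 1 := by
    rw [hvv, vec_dot hf] at hv
    simpa [qq] using hv
  have hd : ∀ y : ι → F, y ⬝ᵥ v = y (f 0) * v (f 0) + y (f 1) * v (f 1) + y (f 2) * v (f 2) + y (f 3) * v (f 3) := by
    intro y
    conv_lhs => rw [hvv]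
    rw [dot_vec]
    simp [qq]
  rw [LinearEquiv.mul_apply, rf_apply hv, hd]
  simp only [rf_e]
  funext j
  simp only [Pi.sub_apply, Pi.smul_apply, smul_eq_mul, rf_e]
  by_cases hj : ∀ i, j ≠ f i
  · rw [hs j hj, act]
    simp [vec_ne hj, hj]
  · push Not at hj
    obtain ⟨i, rfl⟩ := hj
    have hq := qq_act hf (qq f v) (qq f v) x
    have q0 := congrArg QuaternionAlgebra.re hq
    have q1 := congrArg QuaternionAlgebra.imI hq
    have q2 := congrArg QuaternionAlgebra.imJ hq
    have q3 := congrArg QuaternionAlgebra.imK hq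
    simp only [Quaternion.re_mul, Quaternion.imI_mul, Quaternion.imJ_mul, Quaternion.imK_mul, qq_re, qq_imI, qq_imJ,
      qq_imK] at q0 q1 q2 q3
    fin_cases i
    · simp only [Fin.mk_zero, Fin.zero_eta, h01, h02, h03, h12, h13, h23, h01.symm, h02.symm, h03.symm, h12.symm, h13.symm, h23.symm, if_true, if_false]
      rw [q0]; linear_combination (x (f 0)) * hN
    · simp only [Fin.mk_one, Fin.reduceFinMk, h01, h02, h03, h12, h13, h23, h01.symm, h02.symm, h03.symm, h12.symm, h13.symm, h23.symm, if_true, if_false]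
      rw [q1]; linear_combination (- x (f 1)) * hN
    · simp only [Fin.mk_one, Fin.reduceFinMk, h01, h02, h03, h12, h13, h23, h01.symm, h02.symm, h03.symm, h12.symm, h13.symm, h23.symm, if_true, if_false]
      rw [q2]; linear_combination (- x (f 2)) * hN
    · simp only [Fin.mk_one, Fin.reduceFinMk, h01, h02, h03, h12, h13, h23, h01.symm, h02.symm, h03.symm, h12.symm, h13.symm, h23.symm, if_true, if_false]
      rw [q3]; linear_combination (- x (f 3)) * hN

end H87.FrP9
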