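import Cfsg.Agent.Lib.H87.FrP9b

set_option autoImplicit false

/-! Elements of `K` acting on four coordinates. -/

open Matrix H96.Fr

namespace H87.FrP9

open scoped Quaternion

variable {ι F : Type*} [Fintype ι] [DecidableEq ι] [Field F] {K : Subgroup ((ι → F) ≃ₗ[F] (ι → F))}
variable {f : Fin 4 → ι}

theorem ext4 {y y' : ι → F} (h : ∀ j, (∀ i, j ≠ f i) → y j = y' j) (hq : qq f y = qq f y') : y = y' := by
  funext j
  by_cases hj : ∀ i, j ≠ f i
  · exact h j hj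
  · push Not at hj
    obtain ⟨i, rfl⟩ := hj
    have q0 := congrArg QuaternionAlgebra.re hq
    have q1 := congrArg QuaternionAlgebra.imI hq
    have q2 := congrArg QuaternionAlgebra.imJ hq
    have q3 := congrArg QuaternionAlgebra.imK hq
    fin_cases i
    · exact q0
    · exact q1
    · exact q2
    · exact q3

theorem act_off (a b : ℍ[F]) (x : ι → F) {j : ι} (hj : ∀ i, j ≠ f i) : act f a b x j = x j := by
  simp [act, vec_ne hj]

theorem eq_act (hf : Function.Injective f) {a b : ℍ[F]} {x y : ι → F} (h : ∀ j, (∀ i, j ≠ f i) → y j = x j)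
    (hq : qq f y = a * qq f x * b) : y = act f a b x := by
  apply ext4 (f := f)
  · intro j hj; rw [h j hj, act_off a b x hj]
  · rw [hq, qq_act hf]

theorem act_vec (hf : Function.Injective f) (a b u : ℍ[F]) : act f a b (vec f u) = vec f (a * u * b) := by
  rw [act, qq_vec hf, sub_self, zero_add]

def qi : ℍ[F] := ⟨0, 1, 0, 0⟩
def qj : ℍ[F] := ⟨0, 0, 1, 0⟩
def qk : ℍ[F] := ⟨0, 0, 0, 1⟩

theorem qi_re : (qi : ℍ[F]).re = 0 := rfl
theorem qi_imI : (qi : ℍ[F]).imI = 1 := rfl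
theorem qi_imJ : (qi : ℍ[F]).imJ = 0 := rfl
theorem qi_imK : (qi : ℍ[F]).imK = 0 := rfl
theorem qj_re : (qj : ℍ[F]).re = 0 := rfl
theorem qj_imI : (qj : ℍ[F]).imI = 0 := rfl
theorem qj_imJ : (qj : ℍ[F]).imJ = 1 := rfl
theorem qj_imK : (qj : ℍ[F]).imK = 0 := rfl
theorem qk_re : (qk : ℍ[F]).re = 0 := rfl
theorem qk_imI : (qk : ℍ[F]).imI = 0 := rfl
theorem qk_imJ : (qk : ℍ[F]).imJ = 0 := rfl
theorem qk_imK : (qk : ℍ[F]).imK = 1 := rfl

theorem pp_i (D : Dat K) (hf : Function.Injective f) : PP K f qi 1 := by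
  have h01 := hf.ne (show (0 : Fin 4) ≠ 1 by decide)
  have h02 := hf.ne (show (0 : Fin 4) ≠ 2 by decide)
  have h03 := hf.ne (show (0 : Fin 4) ≠ 3 by decide)
  have h12 := hf.ne (show (1 : Fin 4) ≠ 2 by decide)
  have h13 := hf.ne (show (1 : Fin 4) ≠ 3 by decide)
  have h23 := hf.ne (show (2 : Fin 4) ≠ 3 by decide)
  refine ⟨H96.Fr.sg (f 0) (f 2) * pm (Equiv.swap (f 0) (f 1) * Equiv.swap (f 2) (f 3)),
    K.mul_mem (D.sg _ _ h02) (D.pm _ ?_), fun x => ?_⟩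
  · rw [Equiv.Perm.sign_mul, Equiv.Perm.sign_swap h01, Equiv.Perm.sign_swap h23]; rfl
  · apply eq_act hf
    · intro j hj
      rw [LinearEquiv.mul_apply, sg_apply, pm_apply, if_neg (by push Not; exact ⟨hj 0, hj 2⟩)]
      congr 1
      rw [Equiv.symm_apply_eq, Equiv.Perm.mul_apply, Equiv.swap_apply_of_ne_of_ne (hj 2) (hj 3),
        Equiv.swap_apply_of_ne_of_ne (hj 0) (hj 1)]
    · have s0 : (Equiv.swap (f 0) (f 1) * Equiv.swap (f 2) (f 3)).symm (f 0) = f 1 := by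
        rw [Equiv.symm_apply_eq, Equiv.Perm.mul_apply, Equiv.swap_apply_of_ne_of_ne h12 h13, Equiv.swap_apply_right]
      have s1 : (Equiv.swap (f 0) (f 1) * Equiv.swap (f 2) (f 3)).symm (f 1) = f 0 := by
        rw [Equiv.symm_apply_eq, Equiv.Perm.mul_apply, Equiv.swap_apply_of_ne_of_ne h02 h03, Equiv.swap_apply_left]
      have s2 : (Equiv.swap (f 0) (f 1) * Equiv.swap (f 2) (f 3)).symm (f 2) = f 3 := by
        rw [Equiv.symm_apply_eq, Equiv.Perm.mul_apply, Equiv.swap_apply_right,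
          Equiv.swap_apply_of_ne_of_ne h02.symm h12.symm]
      have s3 : (Equiv.swap (f 0) (f 1) * Equiv.swap (f 2) (f 3)).symm (f 3) = f 2 := by
        rw [Equiv.symm_apply_eq, Equiv.Perm.mul_apply, Equiv.swap_apply_left,
          Equiv.swap_apply_of_ne_of_ne h03.symm h13.symm]
      ext <;> simp [LinearEquiv.mul_apply, sg_apply, pm_apply, qi_re, qi_imI, qi_imJ, qi_imK, qq_re, qq_imI, qq_imJ, qq_imK, s0, s1, s2, s3, h01, h02,
        h03, h12, h13, h23, h01.symm, h02.symm, h03.symm, h12.symm, h13.symm, h23.symm]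

theorem pp_j (D : Dat K) (hf : Function.Injective f) : PP K f qj 1 := by
  have h01 := hf.ne (show (0 : Fin 4) ≠ 1 by decide)
  have h02 := hf.ne (show (0 : Fin 4) ≠ 2 by decide)
  have h03 := hf.ne (show (0 : Fin 4) ≠ 3 by decide)
  have h12 := hf.ne (show (1 : Fin 4) ≠ 2 by decide)
  have h13 := hf.ne (show (1 : Fin 4) ≠ 3 by decide)
  have h23 := hf.ne (show (2 : Fin 4) ≠ 3 by decide)
  refine ⟨H96.Fr.sg (f 0) (f 3) * pm (Equiv.swap (f 0) (f 2) * Equiv.swap (f 1) (f 3)),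
    K.mul_mem (D.sg _ _ h03) (D.pm _ ?_), fun x => ?_⟩
  · rw [Equiv.Perm.sign_mul, Equiv.Perm.sign_swap h02, Equiv.Perm.sign_swap h13]; rfl
  · apply eq_act hf
    · intro j hj
      rw [LinearEquiv.mul_apply, sg_apply, pm_apply, if_neg (by push Not; exact ⟨hj 0, hj 3⟩)]
      congr 1
      rw [Equiv.symm_apply_eq, Equiv.Perm.mul_apply, Equiv.swap_apply_of_ne_of_ne (hj 1) (hj 3),
        Equiv.swap_apply_of_ne_of_ne (hj 0) (hj 2)]
    · have s0 : (Equiv.swap (f 0) (f 2) * Equiv.swap (f 1) (f 3)).symm (f 0) = f 2 := by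
        rw [Equiv.symm_apply_eq, Equiv.Perm.mul_apply, Equiv.swap_apply_of_ne_of_ne h12.symm h23, Equiv.swap_apply_right]
      have s2 : (Equiv.swap (f 0) (f 2) * Equiv.swap (f 1) (f 3)).symm (f 2) = f 0 := by
        rw [Equiv.symm_apply_eq, Equiv.Perm.mul_apply, Equiv.swap_apply_of_ne_of_ne h01 h03, Equiv.swap_apply_left]
      have s1 : (Equiv.swap (f 0) (f 2) * Equiv.swap (f 1) (f 3)).symm (f 1) = f 3 := by
        rw [Equiv.symm_apply_eq, Equiv.Perm.mul_apply, Equiv.swap_apply_right,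
          Equiv.swap_apply_of_ne_of_ne h01.symm h12]
      have s3 : (Equiv.swap (f 0) (f 2) * Equiv.swap (f 1) (f 3)).symm (f 3) = f 1 := by
        rw [Equiv.symm_apply_eq, Equiv.Perm.mul_apply, Equiv.swap_apply_left,
          Equiv.swap_apply_of_ne_of_ne h03.symm h23.symm]
      ext <;> simp [LinearEquiv.mul_apply, sg_apply, pm_apply, qj_re, qj_imI, qj_imJ, qj_imK, qq_re, qq_imI, qq_imJ, qq_imK, s0, s1, s2, s3, h01, h02,
        h03, h12, h13, h23, h01.symm, h02.symm, h03.symm, h12.symm, h13.symm, h23.symm]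

theorem pp_k (D : Dat K) (hf : Function.Injective f) : PP K f qk 1 := by
  have h := (pp_i D hf).mul hf (pp_j D hf)
  have h1 : (qi * qj : ℍ[F]) = qk := by
    ext <;> simp only [Quaternion.re_mul, Quaternion.imI_mul, Quaternion.imJ_mul, Quaternion.imK_mul, qi_re, qi_imI,
      qi_imJ, qi_imK, qj_re, qj_imI, qj_imJ, qj_imK, qk_re, qk_imI, qk_imJ, qk_imK] <;> ring
  rwa [h1, mul_one] at h

theorem PP.bar (D : Dat K) (hf : Function.Injective f) {l : ι} (hl : ∀ i, l ≠ f i) {a b : ℍ[F]} (h : PP K f a b) :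
    PP K f (star b) (star a) := by
  have h01 := hf.ne (show (0 : Fin 4) ≠ 1 by decide)
  have h02 := hf.ne (show (0 : Fin 4) ≠ 2 by decide)
  have h03 := hf.ne (show (0 : Fin 4) ≠ 3 by decide)
  have h12 := hf.ne (show (1 : Fin 4) ≠ 2 by decide)
  have h13 := hf.ne (show (1 : Fin 4) ≠ 3 by decide)
  have h23 := hf.ne (show (2 : Fin 4) ≠ 3 by decide)
  obtain ⟨g, hg, hx⟩ := h
  set d : (ι → F) ≃ₗ[F] (ι → F) := H96.Fr.sg (f 1) (f 2) * H96.Fr.sg (f 3) l with hd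
  have hdK : d ∈ K := K.mul_mem (D.sg _ _ h12) (D.sg _ _ (hl 3).symm)
  have d1 : ∀ (x : ι → F) j, (∀ i, j ≠ f i) → j ≠ l → d x j = x j := by
    intro x j hj hjl
    rw [hd, LinearEquiv.mul_apply, sg_apply, sg_apply]
    simp [hj 1, hj 2, hj 3, hjl]
  have d2 : ∀ x : ι → F, d x l = - x l := by
    intro x
    rw [hd, LinearEquiv.mul_apply, sg_apply, sg_apply]
    simp [hl 1, hl 2]
  have d3 : ∀ x : ι → F, qq f (d x) = star (qq f x) := by
    intro x
    ext <;> simp [hd, LinearEquiv.mul_apply, sg_apply, qq_re, qq_imI, qq_imJ, qq_imK, h01, h02, h03, h12, h13, h23,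
      h01.symm, h02.symm, h03.symm, h12.symm, h13.symm, h23.symm, (hl 0).symm, (hl 1).symm, (hl 2).symm, (hl 3).symm]
  refine ⟨d * g * d, K.mul_mem (K.mul_mem hdK hg) hdK, fun x => ?_⟩
  rw [LinearEquiv.mul_apply, LinearEquiv.mul_apply, hx]
  apply eq_act hf
  · intro j hj
    by_cases hjl : j = l
    · subst hjl; rw [d2, act_off _ _ _ hj, d2, neg_neg]
    · rw [d1 _ _ hj hjl, act_off _ _ _ hj, d1 _ _ hj hjl]
  · rw [d3, qq_act hf, d3]
    simp only [star_mul, star_star, mul_assoc]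

/-- the cyclic permutation `i → j → k → i` -/
def cyc (u : ℍ[F]) : ℍ[F] := ⟨u.re, u.imK, u.imI, u.imJ⟩

theorem cyc_re (u : ℍ[F]) : (cyc u).re = u.re := rfl
theorem cyc_imI (u : ℍ[F]) : (cyc u).imI = u.imK := rfl
theorem cyc_imJ (u : ℍ[F]) : (cyc u).imJ = u.imI := rfl
theorem cyc_imK (u : ℍ[F]) : (cyc u).imK = u.imJ := rfl

theorem cyc_mul (u w : ℍ[F]) : cyc (u * w) = cyc u * cyc w := by
  ext <;> simp only [cyc_re, cyc_imI, cyc_imJ, cyc_imK, Quaternion.re_mul, Quaternion.imI_mul, Quaternion.imJ_mul,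
    Quaternion.imK_mul] <;> ring

theorem PP.cyc (D : Dat K) (hf : Function.Injective f) {a b : ℍ[F]} (h : PP K f a b) :
    PP K f (cyc a) (cyc b) := by
  have h01 := hf.ne (show (0 : Fin 4) ≠ 1 by decide)
  have h02 := hf.ne (show (0 : Fin 4) ≠ 2 by decide)
  have h03 := hf.ne (show (0 : Fin 4) ≠ 3 by decide)
  have h12 := hf.ne (show (1 : Fin 4) ≠ 2 by decide)
  have h13 := hf.ne (show (1 : Fin 4) ≠ 3 by decide)
  have h23 := hf.ne (show (2 : Fin 4) ≠ 3 by decide)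
  obtain ⟨g, hg, hx⟩ := h
  set σ : Equiv.Perm ι := Equiv.swap (f 1) (f 2) * Equiv.swap (f 2) (f 3) with hσ
  have hs : Equiv.Perm.sign σ = 1 := by
    rw [hσ, Equiv.Perm.sign_mul, Equiv.Perm.sign_swap h12, Equiv.Perm.sign_swap h23]; rfl
  have s0 : σ.symm (f 0) = f 0 := by
    rw [Equiv.symm_apply_eq, hσ, Equiv.Perm.mul_apply, Equiv.swap_apply_of_ne_of_ne h02 h03,
      Equiv.swap_apply_of_ne_of_ne h01 h02]
  have s1 : σ.symm (f 1) = f 3 := by
    rw [Equiv.symm_apply_eq, hσ, Equiv.Perm.mul_apply, Equiv.swap_apply_right, Equiv.swap_apply_right]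
  have s2 : σ.symm (f 2) = f 1 := by
    rw [Equiv.symm_apply_eq, hσ, Equiv.Perm.mul_apply, Equiv.swap_apply_of_ne_of_ne h12 h13, Equiv.swap_apply_left]
  have s3 : σ.symm (f 3) = f 2 := by
    rw [Equiv.symm_apply_eq, hσ, Equiv.Perm.mul_apply, Equiv.swap_apply_left,
      Equiv.swap_apply_of_ne_of_ne h13.symm h23.symm]
  have s4 : ∀ j, (∀ i, j ≠ f i) → σ.symm j = j := by
    intro j hj
    rw [Equiv.symm_apply_eq, hσ, Equiv.Perm.mul_apply, Equiv.swap_apply_of_ne_of_ne (hj 2) (hj 3),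
      Equiv.swap_apply_of_ne_of_ne (hj 1) (hj 2)]
  have t3 : ∀ x : ι → F, qq f (pm σ x) = H87.FrP9.cyc (qq f x) := by
    intro x
    ext <;> simp [H87.FrP9.cyc, pm_apply, qq_re, qq_imI, qq_imJ, qq_imK, s0, s1, s2, s3]
  have hpK : (pm σ : (ι → F) ≃ₗ[F] (ι → F)) ∈ K := D.pm σ hs
  refine ⟨pm σ * g * (pm σ)⁻¹, K.mul_mem (K.mul_mem hpK hg) (K.inv_mem hpK), fun x => ?_⟩
  have hy : pm σ ((pm σ)⁻¹ x) = x := by
    rw [← LinearEquiv.mul_apply, mul_inv_cancel]; rfl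
  rw [LinearEquiv.mul_apply, LinearEquiv.mul_apply, hx]
  apply eq_act hf
  · intro j hj
    rw [pm_apply, s4 j hj, act_off _ _ _ hj]
    conv_rhs => rw [← hy]
    rw [pm_apply, s4 j hj]
  · rw [t3, qq_act hf, cyc_mul, cyc_mul, ← t3, hy]

end H87.FrP9
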