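import Cfsg.Agent.Lib.H87.FrP9c

set_option autoImplicit false

/-! Unit vectors on four coordinates. -/

open Matrix H96.Fr

namespace H87.FrP9

open scoped Quaternion

variable {ι F : Type*} [Fintype ι] [DecidableEq ι] [Field F] {K : Subgroup ((ι → F) ≃ₗ[F] (ι → F))}
variable {f : Fin 4 → ι}

/-- the norm -/
def nn (u : ℍ[F]) : F := u.re * u.re + u.imI * u.imI + u.imJ * u.imJ + u.imK * u.imK

theorem nn_vec (hf : Function.Injective f) (u : ℍ[F]) : vec f u ⬝ᵥ vec f u = nn u := vec_dot hf u u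

theorem mul_star' {u : ℍ[F]} (h : nn u = 1) : u * star u = 1 := by
  rw [nn] at h
  ext
  · simp; linear_combination h
  · simp; ring
  · simp; ring
  · simp; ring

theorem star_mul' {u : ℍ[F]} (h : nn u = 1) : star u * u = 1 := by
  rw [nn] at h
  ext
  · simp; linear_combination h
  · simp; ring
  · simp; ring
  · simp; ring

/-- there is a half vector -/
def Half (K : Subgroup ((ι → F) ≃ₗ[F] (ι → F))) (f : Fin 4 → ι) : Prop :=
  ∃ w : ℍ[F], Phi K (vec f w) ∧ 4 * (w.re * w.re) = 1 ∧ 4 * (w.imI * w.imI) = 1 ∧ 4 * (w.imJ * w.imJ) = 1 ∧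
    4 * (w.imK * w.imK) = 1

theorem PP.phi (D : Dat K) (hf : Function.Injective f) {l : ι} (hl : ∀ i, l ≠ f i) {a b : ℍ[F]} (h : PP K f a b)
    {u : ℍ[F]} (hu : Phi K (vec f u)) : Phi K (vec f (a * u * b)) := by
  obtain ⟨g, hg, hx⟩ := h
  rw [← act_vec hf, ← hx]
  refine phi_map D hg (j := l) (k := l) (Or.inl ?_) hu
  rw [hx, act_ne a b hl]

theorem vec_one (f : Fin 4 → ι) : vec f (1 : ℍ[F]) = e (f 0) := by simp [vec]

theorem vec_qi (f : Fin 4 → ι) : vec f (qi : ℍ[F]) = e (f 1) := by simp [vec, qi]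
theorem vec_qj (f : Fin 4 → ι) : vec f (qj : ℍ[F]) = e (f 2) := by simp [vec, qj]
theorem vec_qk (f : Fin 4 → ι) : vec f (qk : ℍ[F]) = e (f 3) := by simp [vec, qk]

theorem vec_mono (hf : Function.Injective f) {w : ℍ[F]} (h : ∃ j, vec f w = e j ∨ vec f w = - e j) :
    w.imI * w.imJ = 0 ∧ w.imI * w.imK = 0 ∧ w.imJ * w.imK = 0 := by
  have h12 := hf.ne (show (1 : Fin 4) ≠ 2 by decide)
  have h13 := hf.ne (show (1 : Fin 4) ≠ 3 by decide)
  have h23 := hf.ne (show (2 : Fin 4) ≠ 3 by decide)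
  obtain ⟨j, hj⟩ := h
  have hq := qq_vec hf w
  have q1 : w.imI = vec f w (f 1) := (congrArg QuaternionAlgebra.imI hq).symm
  have q2 : w.imJ = vec f w (f 2) := (congrArg QuaternionAlgebra.imJ hq).symm
  have q3 : w.imK = vec f w (f 3) := (congrArg QuaternionAlgebra.imK hq).symm
  have key : ∀ s t : ι, s ≠ t → vec f w s * vec f w t = 0 := by
    intro s t hst
    have h0 : (e j : ι → F) s * (e j : ι → F) t = 0 := by
      by_cases h1 : s = j
      · have h2 : t ≠ j := fun h3 => hst (h1.trans h3.symm)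
        simp [e, h2]
      · simp [e, h1]
    rcases hj with hj | hj
    · rw [hj, h0]
    · rw [hj, Pi.neg_apply, Pi.neg_apply, neg_mul_neg, h0]
  rw [q1, q2, q3]
  exact ⟨key _ _ h12, key _ _ h13, key _ _ h23⟩

theorem PP.mono (D : Dat K) (hm : MonLe K 3) (hf : Function.Injective f) {l : ι} (hl : ∀ i, l ≠ f i) {p : ℍ[F]}
    (h : PP K f p 1) (hp : nn p = 1) (i : Fin 4) (u : ℍ[F]) (hu : vec f u = e (f i)) :
    (p * u * star p).imI * (p * u * star p).imJ = 0 ∧ (p * u * star p).imI * (p * u * star p).imK = 0 ∧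
      (p * u * star p).imJ * (p * u * star p).imK = 0 := by
  have h1 := h.bar D hf hl
  rw [star_one] at h1
  have h2 := h.mul hf h1
  rw [mul_one, mul_one] at h2
  obtain ⟨g, hg, hx⟩ := h2
  have hmon : Mon g := by
    apply hm g hg (Finset.univ.image fun i : Fin 3 => f i.succ)
    · exact Finset.card_image_le.trans (by simp)
    · intro j hj
      rw [hx]
      by_cases h3 : ∀ i, j ≠ f i
      · exact act_ne _ _ h3
      · push Not at h3
        obtain ⟨i, rfl⟩ := h3
        rcases Fin.eq_zero_or_eq_succ i with rfl | ⟨k, rfl⟩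
        · rw [act_e0 hf, mul_star' hp, vec_one]
        · exact absurd (Finset.mem_image_of_mem (fun i : Fin 3 => f i.succ) (Finset.mem_univ k)) hj
  apply vec_mono hf
  have h3 := hmon (f i)
  rwa [← hu, hx, act_vec hf] at h3

/-- a pure unit quaternion with two nonzero coordinates gives a half vector -/
theorem half_of (D : Dat K) (h2 : (2 : F) ≠ 0) (hm : MonLe K 3) (hf : Function.Injective f) {l : ι}
    (hl : ∀ i, l ≠ f i) {p : ℍ[F]} (h : PP K f p 1) (h0 : p.re = 0) (hp : nn p = 1) (hne : p.imI * p.imJ ≠ 0) :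
    Half K f := by
  have hI : p.imI ≠ 0 := left_ne_zero_of_mul hne
  have hJ : p.imJ ≠ 0 := right_ne_zero_of_mul hne
  obtain ⟨a1, a2, a3⟩ := h.mono D hm hf hl hp 1 qi (vec_qi f)
  rw [nn, h0] at hp
  simp only [Quaternion.re_mul, Quaternion.imI_mul, Quaternion.imJ_mul, Quaternion.imK_mul, Quaternion.re_star,
    Quaternion.imI_star, Quaternion.imJ_star, Quaternion.imK_star, h0, qi_re, qi_imI, qi_imJ, qi_imK] at a1 a2 a3
  have hK : p.imK = 0 := by
    have h4 : 2 * (2 * (p.imI * (p.imI * p.imJ * p.imK))) = 0 := by linear_combination a3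
    have h5 := (mul_eq_zero.1 ((mul_eq_zero.1 h4).resolve_left h2)).resolve_left h2
    have h6 := (mul_eq_zero.1 h5).resolve_left hI
    exact (mul_eq_zero.1 h6).resolve_left hne
  rw [hK] at hp a1
  have h5 : p.imI * p.imI = p.imJ * p.imJ := by
    have h6 : 2 * ((p.imI * p.imJ) * (p.imI * p.imI - p.imJ * p.imJ)) = 0 := by linear_combination a1
    exact sub_eq_zero.1 ((mul_eq_zero.1 ((mul_eq_zero.1 h6).resolve_left h2)).resolve_left hne)
  have h6 : 2 * (p.imI * p.imI) = 1 := by linear_combination hp + h5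
  have h7 : 2 * (p.imJ * p.imJ) = 1 := by linear_combination hp - h5
  have h8 := h.mul hf (h.cyc D hf)
  have h9 : cyc (1 : ℍ[F]) = 1 := by ext <;> simp [cyc_re, cyc_imI, cyc_imJ, cyc_imK]
  rw [h9, mul_one] at h8
  have h10 := h8.phi D hf hl (u := 1) (by rw [vec_one]; exact phi_e D _)
  rw [mul_one, mul_one] at h10
  refine ⟨_, h10, ?_, ?_, ?_, ?_⟩ <;>
    simp only [Quaternion.re_mul, Quaternion.imI_mul, Quaternion.imJ_mul, Quaternion.imK_mul, cyc_re, cyc_imI, cyc_imJ,
      cyc_imK, h0, hK]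
  · linear_combination (2 * (p.imJ * p.imJ)) * h6 + h7
  · linear_combination (2 * (p.imJ * p.imJ) + 1) * h7
  · linear_combination (2 * (p.imJ * p.imJ)) * h6 + h7
  · linear_combination (2 * (p.imI * p.imI) + 1) * h6

theorem pure_of (D : Dat K) (h2 : (2 : F) ≠ 0) (hm : MonLe K 3) (hf : Function.Injective f) {l : ι}
    (hl : ∀ i, l ≠ f i) (hH : ¬ Half K f) {p : ℍ[F]} (h : PP K f p 1) (h0 : p.re = 0) (hp : nn p = 1) :
    p.imI * p.imJ = 0 ∧ p.imI * p.imK = 0 ∧ p.imJ * p.imK = 0 := by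
  have h9 : cyc (1 : ℍ[F]) = 1 := by ext <;> simp [cyc_re, cyc_imI, cyc_imJ, cyc_imK]
  have hc := h.cyc D hf
  rw [h9] at hc
  have hcc := hc.cyc D hf
  rw [h9] at hcc
  have n1 : nn (cyc p) = 1 := by rw [← hp, nn, nn, cyc_re, cyc_imI, cyc_imJ, cyc_imK]; ring
  have n2 : nn (cyc (cyc p)) = 1 := by
    rw [← n1, nn, nn]
    simp only [cyc_re, cyc_imI, cyc_imJ, cyc_imK]
    ring
  refine ⟨?_, ?_, ?_⟩
  · by_contra hne
    exact hH (half_of D h2 hm hf hl h h0 hp hne)
  · by_contra hne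
    refine hH (half_of D h2 hm hf hl hc h0 n1 ?_)
    rw [cyc_imI, cyc_imJ, mul_comm]; exact hne
  · by_contra hne
    refine hH (half_of D h2 hm hf hl hcc h0 n2 ?_)
    rw [cyc_imI, cyc_imJ, cyc_imK, cyc_imI, mul_comm]
    rwa [mul_comm]

/-- the rotation of a unit vector of `Phi K` -/
theorem col (D : Dat K) (h2 : (2 : F) ≠ 0) (hm : MonLe K 3) (hf : Function.Injective f) {l : ι}
    (hl : ∀ i, l ≠ f i) (hH : ¬ Half K f) {v : ℍ[F]} (hv : Phi K (vec f v)) {u : ℍ[F]} (hu : PP K f u 1)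
    (hu0 : u.re = 0) (hu1 : nn u = 1) :
    (v * u * star v).imI * (v * u * star v).imJ = 0 ∧ (v * u * star v).imI * (v * u * star v).imK = 0 ∧
      (v * u * star v).imJ * (v * u * star v).imK = 0 := by
  have hn : nn v = 1 := by rw [← nn_vec hf]; exact hv.1
  have h1 : PP K f v v := by
    refine ⟨_, hv.2 (f 0), fun x => ?_⟩
    have h3 := rf_act hf hv.1 (fun j hj => vec_ne hj) x
    rw [qq_vec hf] at h3
    exact h3
  have h3 := h1.inv hf (mul_star' hn) (star_mul' hn)
  have h4 := (h1.mul hf hu).mul hf h3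
  rw [one_mul, star_mul' hn] at h4
  apply pure_of D h2 hm hf hl hH h4
  · simp only [Quaternion.re_mul, Quaternion.imI_mul, Quaternion.imJ_mul, Quaternion.imK_mul, Quaternion.re_star,
      Quaternion.imI_star, Quaternion.imJ_star, Quaternion.imK_star, hu0]
    ring
  · rw [nn] at hn hu1 ⊢
    rw [hu0] at hu1
    simp only [Quaternion.re_mul, Quaternion.imI_mul, Quaternion.imJ_mul, Quaternion.imK_mul, Quaternion.re_star,
      Quaternion.imI_star, Quaternion.imJ_star, Quaternion.imK_star, hu0]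
    have e1 : v.re * v.re = 1 - (v.imI * v.imI + v.imJ * v.imJ + v.imK * v.imK) := by linear_combination hn
    linear_combination ((v.re * v.re + v.imI * v.imI + v.imJ * v.imJ + v.imK * v.imK) ^ 2) * hu1 +
      (v.re * v.re + v.imI * v.imI + v.imJ * v.imJ + v.imK * v.imK + 1) * hn

end H87.FrP9
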