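import Cfsg.Agent.Lib.H87.FrP9d

set_option autoImplicit false

/-! Unit vectors in `Phi K` on four coordinates when there is no half vector. -/

open Matrix H96.Fr

namespace H87.FrP9

open scoped Quaternion

variable {ι F : Type*} [Fintype ι] [DecidableEq ι] [Field F] {K : Subgroup ((ι → F) ≃ₗ[F] (ι → F))}
variable {f : Fin 4 → ι}

/-- change the sign of the first coordinate -/
def neg0 (v : ℍ[F]) : ℍ[F] := ⟨- v.re, v.imI, v.imJ, v.imK⟩

theorem neg0_re (v : ℍ[F]) : (neg0 v).re = - v.re := rfl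
theorem neg0_imI (v : ℍ[F]) : (neg0 v).imI = v.imI := rfl
theorem neg0_imJ (v : ℍ[F]) : (neg0 v).imJ = v.imJ := rfl
theorem neg0_imK (v : ℍ[F]) : (neg0 v).imK = v.imK := rfl

theorem phi_neg0 (D : Dat K) (hf : Function.Injective f) {v : ℍ[F]} (hv : Phi K (vec f v)) :
    Phi K (vec f (neg0 v)) := by
  have h01 := hf.ne (show (0 : Fin 4) ≠ 1 by decide)
  have h02 := hf.ne (show (0 : Fin 4) ≠ 2 by decide)
  have h03 := hf.ne (show (0 : Fin 4) ≠ 3 by decide)
  have h := phi_rf hv (phi_e D (f 0))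
  have h1 : rf (e (f 0)) (vec f v) = vec f (neg0 v) := by
    funext j
    rw [rf_e]
    by_cases hj : j = f 0
    · subst hj; simp [vec, e, h01, h02, h03, neg0_re, neg0_imI, neg0_imJ, neg0_imK]
    · simp [vec, e, hj, neg0_re, neg0_imI, neg0_imJ, neg0_imK]
  rwa [h1] at h

theorem rel (D : Dat K) (h2 : (2 : F) ≠ 0) (hm : MonLe K 3) (hf : Function.Injective f) {l : ι}
    (hl : ∀ i, l ≠ f i) (hH : ¬ Half K f) {v : ℍ[F]} (hv : Phi K (vec f v)) {a b c d : F} (ha : v.re = a)
    (hb : v.imI = b) (hc : v.imJ = c) (hd : v.imK = d) :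
    (a * b * (a * a - b * b) = 0 ∧ a * b * (c * c - d * d) = 0) ∧
    (c * d * (c * c - d * d) = 0 ∧ c * d * (a * a - b * b) = 0) ∧
    (a * c * (a * a - c * c) = 0 ∧ a * c * (b * b - d * d) = 0) ∧
    (b * d * (b * b - d * d) = 0 ∧ b * d * (a * a - c * c) = 0) ∧
    (a * d * (a * a - d * d) = 0 ∧ a * d * (b * b - c * c) = 0) ∧
    (b * c * (b * b - c * c) = 0 ∧ b * c * (a * a - d * d) = 0) := by
  have hv' := phi_neg0 D hf hv
  have ni : nn (qi : ℍ[F]) = 1 := by rw [nn, qi_re, qi_imI, qi_imJ, qi_imK]; ring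
  have nj : nn (qj : ℍ[F]) = 1 := by rw [nn, qj_re, qj_imI, qj_imJ, qj_imK]; ring
  have nk : nn (qk : ℍ[F]) = 1 := by rw [nn, qk_re, qk_imI, qk_imJ, qk_imK]; ring
  obtain ⟨i1, i2, i3⟩ := col D h2 hm hf hl hH hv (pp_i D hf) rfl ni
  obtain ⟨j1, j2, j3⟩ := col D h2 hm hf hl hH hv (pp_j D hf) rfl nj
  obtain ⟨k1, k2, k3⟩ := col D h2 hm hf hl hH hv (pp_k D hf) rfl nk
  obtain ⟨i1', i2', i3'⟩ := col D h2 hm hf hl hH hv' (pp_i D hf) rfl ni
  obtain ⟨j1', j2', j3'⟩ := col D h2 hm hf hl hH hv' (pp_j D hf) rfl nj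
  obtain ⟨k1', k2', k3'⟩ := col D h2 hm hf hl hH hv' (pp_k D hf) rfl nk
  simp only [Quaternion.re_mul, Quaternion.imI_mul, Quaternion.imJ_mul, Quaternion.imK_mul, Quaternion.re_star,
    Quaternion.imI_star, Quaternion.imJ_star, Quaternion.imK_star, qi_re, qi_imI, qi_imJ, qi_imK, qj_re, qj_imI,
    qj_imJ, qj_imK, qk_re, qk_imI, qk_imJ, qk_imK, neg0_re, neg0_imI, neg0_imJ, neg0_imK, ha, hb, hc, hd] at i1 i2 i3 j1 j2 j3 k1 k2 k3 i1' i2' i3' j1' j2' j3' k1' k2' k3'
  have c2 : ∀ x : F, 2 * x = 0 → x = 0 := fun x hx => (mul_eq_zero.1 hx).resolve_left h2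
  have c4 : ∀ x : F, 4 * x = 0 → x = 0 := fun x hx => c2 x (c2 (2 * x) (by linear_combination hx))
  have c8 : ∀ x : F, 8 * x = 0 → x = 0 := fun x hx => c2 x (c4 (2 * x) (by linear_combination hx))
  refine ⟨⟨?_, ?_⟩, ⟨?_, ?_⟩, ⟨?_, ?_⟩, ⟨?_, ?_⟩, ⟨?_, ?_⟩, ⟨?_, ?_⟩⟩
  · apply c8; linear_combination j3 - j3' - k3 + k3'
  · apply c8; linear_combination i3' - i3
  · apply c8; linear_combination j3 + j3' - k3 - k3'
  · apply c8; linear_combination - i3' - i3
  · apply c8; linear_combination i2' - i2 + k2 - k2'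
  · apply c8; linear_combination j2 - j2'
  · apply c8; linear_combination i2' + i2 - k2 - k2'
  · apply c8; linear_combination - j2 - j2'
  · apply c8; linear_combination i1 - i1' + j1' - j1
  · apply c8; linear_combination k1' - k1
  · apply c8; linear_combination i1 + i1' - j1' - j1
  · apply c8; linear_combination - k1' - k1

theorem two (D : Dat K) (h2 : (2 : F) ≠ 0) (hm : MonLe K 3) (hf : Function.Injective f) {l : ι}
    (hl : ∀ i, l ≠ f i) (hH : ¬ Half K f) {v : ι → F} (hv : Phi K v) (hs : ∀ j, (∀ i, j ≠ f i) → v j = 0) :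
    (∀ s t r : Fin 4, s ≠ t → s ≠ r → t ≠ r → v (f s) * v (f t) * v (f r) = 0) ∧
    (∀ s t : Fin 4, s ≠ t → v (f s) * v (f t) ≠ 0 → 2 * (v (f s) * v (f s)) = 1 ∧ 2 * (v (f t) * v (f t)) = 1) := by
  have hvv := eq_vec hf hs
  have hv1 := hv
  rw [hvv] at hv1
  obtain ⟨⟨ab, ab'⟩, ⟨cd, cd'⟩, ⟨ac, ac'⟩, ⟨bd, bd'⟩, ⟨ad, ad'⟩, ⟨bc, bc'⟩⟩ :=
    rel D h2 hm hf hl hH hv1 (qq_re v) (qq_imI v) (qq_imJ v) (qq_imK v)
  have hN : nn (qq f v) = 1 := by rw [← nn_vec hf]; exact hv1.1
  rw [nn, qq_re, qq_imI, qq_imJ, qq_imK] at hN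
  set a := v (f 0) with ha
  set b := v (f 1) with hb
  set c := v (f 2) with hc
  set d := v (f 3) with hd
  have hh : a * a = b * b → b * b = c * c → c * c = d * d → False := by
    intro h3 h4 h5
    apply hH
    refine ⟨qq f v, hv1, ?_, ?_, ?_, ?_⟩
    · rw [qq_re, ← ha]; linear_combination hN + 3 * h3 + 2 * h4 + h5
    · rw [qq_imI, ← hb]; linear_combination hN - h3 + 2 * h4 + h5
    · rw [qq_imJ, ← hc]; linear_combination hN - h3 - 2 * h4 + h5
    · rw [qq_imK, ← hd]; linear_combination hN - h3 - 2 * h4 - 3 * h5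
  have z : ∀ x y w : F, x * y * w = 0 → x ≠ 0 → y ≠ 0 → w = 0 := fun x y w h hx hy =>
    (mul_eq_zero.1 h).resolve_left (mul_ne_zero hx hy)
  have T3 : a * b * c = 0 := by
    by_contra hne
    have h3 := left_ne_zero_of_mul (left_ne_zero_of_mul hne)
    have h4 := right_ne_zero_of_mul (left_ne_zero_of_mul hne)
    have h5 := right_ne_zero_of_mul hne
    exact hh (sub_eq_zero.1 (z _ _ _ ab h3 h4)) (sub_eq_zero.1 (z _ _ _ bc h4 h5)) (sub_eq_zero.1 (z _ _ _ ab' h3 h4))
  have T2 : a * b * d = 0 := by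
    by_contra hne
    have h3 := left_ne_zero_of_mul (left_ne_zero_of_mul hne)
    have h4 := right_ne_zero_of_mul (left_ne_zero_of_mul hne)
    have h5 := right_ne_zero_of_mul hne
    have h6 := sub_eq_zero.1 (z _ _ _ ab' h3 h4)
    have h7 := sub_eq_zero.1 (z _ _ _ bd h4 h5)
    exact hh (sub_eq_zero.1 (z _ _ _ ab h3 h4)) (h7.trans h6.symm) h6
  have T1 : a * c * d = 0 := by
    by_contra hne
    have h3 := left_ne_zero_of_mul (left_ne_zero_of_mul hne)
    have h4 := right_ne_zero_of_mul (left_ne_zero_of_mul hne)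
    have h5 := right_ne_zero_of_mul hne
    have h6 := sub_eq_zero.1 (z _ _ _ cd h4 h5)
    have h7 := sub_eq_zero.1 (z _ _ _ cd' h4 h5)
    have h8 := sub_eq_zero.1 (z _ _ _ ac h3 h4)
    exact hh h7 (h7.symm.trans h8) h6
  have T0 : b * c * d = 0 := by
    by_contra hne
    have h3 := left_ne_zero_of_mul (left_ne_zero_of_mul hne)
    have h4 := right_ne_zero_of_mul (left_ne_zero_of_mul hne)
    have h5 := right_ne_zero_of_mul hne
    exact hh (sub_eq_zero.1 (z _ _ _ cd' h4 h5)) (sub_eq_zero.1 (z _ _ _ bc h3 h4)) (sub_eq_zero.1 (z _ _ _ cd h4 h5))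
  have H4 : ∀ s : Fin 4, s = 0 ∨ s = 1 ∨ s = 2 ∨ s = 3 := by decide
  have P : ∀ x y s t : F, x * x + y * y + s * s + t * t = 1 → x * y * (x * x - y * y) = 0 → x * y * s = 0 →
      x * y * t = 0 → x * y ≠ 0 → 2 * (x * x) = 1 ∧ 2 * (y * y) = 1 := by
    intro x y s t h3 h4 h5 h6 h7
    have h8 := sub_eq_zero.1 ((mul_eq_zero.1 h4).resolve_left h7)
    have h9 := (mul_eq_zero.1 h5).resolve_left h7
    have h10 := (mul_eq_zero.1 h6).resolve_left h7
    subst h9; subst h10
    exact ⟨by linear_combination h3 + h8, by linear_combination h3 - h8⟩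
  refine ⟨?_, ?_⟩
  · intro s t r h3 h4 h5
    rcases H4 s with rfl | rfl | rfl | rfl <;> rcases H4 t with rfl | rfl | rfl | rfl <;>
      rcases H4 r with rfl | rfl | rfl | rfl <;>
      first
        | exact absurd rfl h3
        | exact absurd rfl h4
        | exact absurd rfl h5
        | linear_combination T0
        | linear_combination T1
        | linear_combination T2
        | linear_combination T3
  · intro s t h3 h4
    rcases H4 s with rfl | rfl | rfl | rfl <;> rcases H4 t with rfl | rfl | rfl | rfl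
    · exact absurd rfl h3
    · exact P a b c d hN ab T3 T2 h4
    · exact P a c b d (by linear_combination hN) ac (by linear_combination T3) T1 h4
    · exact P a d b c (by linear_combination hN) ad (by linear_combination T2) (by linear_combination T1) h4
    · exact P b a c d (by linear_combination hN) (by linear_combination - ab) (by linear_combination T3)
        (by linear_combination T2) h4
    · exact absurd rfl h3
    · exact P b c a d (by linear_combination hN) bc (by linear_combination T3) T0 h4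
    · exact P b d a c (by linear_combination hN) bd (by linear_combination T2) (by linear_combination T0) h4
    · exact P c a b d (by linear_combination hN) (by linear_combination - ac) (by linear_combination T3)
        (by linear_combination T1) h4
    · exact P c b a d (by linear_combination hN) (by linear_combination - bc) (by linear_combination T3)
        (by linear_combination T0) h4
    · exact absurd rfl h3
    · exact P c d a b (by linear_combination hN) cd (by linear_combination T1) (by linear_combination T0) h4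
    · exact P d a b c (by linear_combination hN) (by linear_combination - ad) (by linear_combination T2)
        (by linear_combination T1) h4
    · exact P d b a c (by linear_combination hN) (by linear_combination - bd) (by linear_combination T2)
        (by linear_combination T0) h4
    · exact P d c a b (by linear_combination hN) (by linear_combination - cd) (by linear_combination T1)
        (by linear_combination T0) h4
    · exact absurd rfl h3

end H87.FrP9
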