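import Mathlib
import Cfsg.Prelude
import Cfsg.Agent.Lib.H3.CardSup

set_option autoImplicit false
set_option maxHeartbeats 400000

/-! Sectional 2-rank via squares: `RK k X` says that every subgroup `H ≤ X` satisfies `|H| ≤ 2^k |Sq H|`. -/

namespace H87.MW1

open Subgroup

variable {G : Type*} [Group G]

/-- the subgroup generated by the squares of the elements of `H` -/
def Sq (H : Subgroup G) : Subgroup G := Subgroup.closure {x | ∃ h ∈ H, x = h * h}

theorem sq_mem {H : Subgroup G} {h : G} (hh : h ∈ H) : h * h ∈ Sq H :=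
  Subgroup.subset_closure ⟨h, hh, rfl⟩

theorem Sq_le (H : Subgroup G) : Sq H ≤ H := by
  rw [Sq, Subgroup.closure_le]
  rintro x ⟨h, hh, rfl⟩
  exact H.mul_mem hh hh

theorem Sq_le_of {H K : Subgroup G} (h : ∀ x ∈ H, x * x ∈ K) : Sq H ≤ K := by
  rw [Sq, Subgroup.closure_le]
  rintro x ⟨y, hy, rfl⟩
  exact h y hy

theorem Sq_mono {H K : Subgroup G} (h : K ≤ H) : Sq K ≤ Sq H :=
  Sq_le_of fun _ hx => sq_mem (h hx)

theorem Sq_conj {H : Subgroup G} {g : G} (hg : ∀ h ∈ H, g * h * g⁻¹ ∈ H) :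
    ∀ x ∈ Sq H, g * x * g⁻¹ ∈ Sq H := by
  intro x hx
  have : Sq H ≤ (Sq H).comap (MulAut.conj g).toMonoidHom := by
    refine Sq_le_of ?_
    intro y hy
    rw [Subgroup.mem_comap]
    have : (MulAut.conj g).toMonoidHom (y * y) = (g * y * g⁻¹) * (g * y * g⁻¹) := by
      simp [MulAut.conj_apply]
    rw [this]
    exact sq_mem (hg y hy)
  have h := this hx
  rw [Subgroup.mem_comap] at h
  simpa using h

theorem Sq_norm (H : Subgroup G) : H ≤ Subgroup.normalizer (Sq H : Set G) := by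
  intro g hg
  rw [Subgroup.mem_normalizer_iff]
  intro x
  constructor
  · intro hx
    exact Sq_conj (fun h hh => H.mul_mem (H.mul_mem hg hh) (H.inv_mem hg)) x hx
  · intro hx
    have := Sq_conj (H := H) (g := g⁻¹)
      (fun h hh => H.mul_mem (H.mul_mem (H.inv_mem hg) hh) (H.inv_mem (H.inv_mem hg))) _ hx
    simpa [mul_assoc] using this

/-- commutators of elements of `H` lie in `Sq H` -/
theorem comm_mem {H : Subgroup G} {x y : G} (hx : x ∈ H) (hy : y ∈ H) :
    x⁻¹ * y⁻¹ * x * y ∈ Sq H := by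
  have : x⁻¹ * y⁻¹ * x * y = (x⁻¹ * x⁻¹) * ((x * y⁻¹) * (x * y⁻¹)) * (y * y) := by group
  rw [this]
  exact (Sq H).mul_mem ((Sq H).mul_mem (sq_mem (H.inv_mem hx))
    (sq_mem (H.mul_mem hx (H.inv_mem hy)))) (sq_mem hy)

/-- rank condition -/
def RK (k : ℕ) (X : Subgroup G) : Prop :=
  ∀ H : Subgroup G, H ≤ X → Nat.card H ≤ 2 ^ k * Nat.card (Sq H)

theorem RK.mono {k : ℕ} {X Y : Subgroup G} (h : RK k X) (hY : Y ≤ X) : RK k Y :=
  fun H hH => h H (hH.trans hY)

theorem RK.le {k l : ℕ} {X : Subgroup G} (h : RK k X) (hkl : k ≤ l) : RK l X :=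
  fun H hH => (h H hH).trans (Nat.mul_le_mul_right _ (Nat.pow_le_pow_right (by norm_num) hkl))

theorem toSect [Finite G] {k : ℕ} (h : RK k (⊤ : Subgroup G)) : Cfsg.SectionalPRankLE 2 k G := by
  intro H N _ A hA hA2
  set K0 := A.comap (QuotientGroup.mk' N) with hK0
  set K := K0.map H.subtype with hK
  have hcK : Nat.card K = Nat.card K0 :=
    Nat.card_congr (K0.equivMapOfInjective H.subtype H.subtype_injective).symm.toEquiv
  have hcK0 : Nat.card K0 = Nat.card A * Nat.card N := by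
    have h1 : N ≤ K0 := by
      intro x hx
      rw [hK0, Subgroup.mem_comap, QuotientGroup.mk'_apply, (QuotientGroup.eq_one_iff x).2 hx]
      exact A.one_mem
    have h2 : N.relIndex K0 = Nat.card A := by
      have := Subgroup.relIndex_comap (f := QuotientGroup.mk' N) (H := (⊥ : Subgroup (H ⧸ N))) (K := K0)
      rw [MonoidHom.comap_bot, QuotientGroup.ker_mk'] at this
      rw [this, hK0, Subgroup.map_comap_eq_self_of_surjective (QuotientGroup.mk'_surjective N),
        Subgroup.relIndex_bot_left]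
    have h3 := Subgroup.relIndex_mul_relIndex (⊥ : Subgroup H) N K0 bot_le h1
    rw [Subgroup.relIndex_bot_left, Subgroup.relIndex_bot_left, h2] at h3
    rw [← h3, mul_comm]
  have hSq : Sq K ≤ N.map H.subtype := by
    refine Sq_le_of ?_
    rintro x ⟨y, hy, rfl⟩
    refine ⟨y * y, ?_, by simp⟩
    have hy' : (QuotientGroup.mk' N) y ∈ A := hy
    have := hA2 _ hy'
    rw [pow_two, ← map_mul, QuotientGroup.mk'_apply, QuotientGroup.eq_one_iff] at this
    exact this
  have hcN : Nat.card (N.map H.subtype) = Nat.card N :=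
    Nat.card_congr (N.equivMapOfInjective H.subtype H.subtype_injective).symm.toEquiv
  have h1 := h K le_top
  have h2 : Nat.card (Sq K) ≤ Nat.card N := by
    rw [← hcN]
    exact Nat.le_of_dvd Nat.card_pos (Subgroup.card_dvd_of_le hSq)
  rw [hcK, hcK0] at h1
  have h3 : Nat.card A * Nat.card N ≤ 2 ^ k * Nat.card N := h1.trans (Nat.mul_le_mul_left _ h2)
  exact Nat.le_of_mul_le_mul_right h3 Nat.card_pos

/-- additivity -/
theorem add [Finite G] {H K : Subgroup G} (hKH : K ≤ H)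
    {a b : ℕ} (ha : Nat.card K ≤ 2 ^ a * Nat.card ↥(K ⊓ Sq H))
    (hb : Nat.card H ≤ 2 ^ b * Nat.card ↥(K ⊔ Sq H)) :
    Nat.card H ≤ 2 ^ (a + b) * Nat.card (Sq H) := by
  have h1 := H3.CardSup.card_sup_mul_card_inf K (Sq H) (hKH.trans (Sq_norm H))
  have hpos : 0 < Nat.card ↥(K ⊓ Sq H) := Nat.card_pos
  have h2 : Nat.card ↥(K ⊔ Sq H) * Nat.card ↥(K ⊓ Sq H) ≤
      (2 ^ a * Nat.card (Sq H)) * Nat.card ↥(K ⊓ Sq H) := by
    rw [h1]
    calc Nat.card K * Nat.card (Sq H) ≤ (2 ^ a * Nat.card ↥(K ⊓ Sq H)) * Nat.card (Sq H) :=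
          Nat.mul_le_mul_right _ ha
      _ = _ := by ring
  have h3 := Nat.le_of_mul_le_mul_right h2 hpos
  calc Nat.card H ≤ 2 ^ b * Nat.card ↥(K ⊔ Sq H) := hb
    _ ≤ 2 ^ b * (2 ^ a * Nat.card (Sq H)) := Nat.mul_le_mul_left _ h3
    _ = _ := by ring

theorem inf_Sq_ge [Finite G] {H K : Subgroup G} (hKH : K ≤ H) {a : ℕ}
    (ha : Nat.card K ≤ 2 ^ a * Nat.card (Sq K)) :
    Nat.card K ≤ 2 ^ a * Nat.card ↥(K ⊓ Sq H) := by
  refine ha.trans (Nat.mul_le_mul_left _ ?_)
  exact Nat.le_of_dvd Nat.card_pos (Subgroup.card_dvd_of_le (le_inf (Sq_le K) (Sq_mono hKH)))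

/-- If `N` has rank ≤ a and `H/(H ∩ N)` has order ≤ 2^b then ok -/
theorem add_of_relIndex [Finite G] {H N : Subgroup G} {a b : ℕ} (hN : RK a N)
    (hb : (H ⊓ N).relIndex H ≤ 2 ^ b) : Nat.card H ≤ 2 ^ (a + b) * Nat.card (Sq H) := by
  refine add (K := H ⊓ N) inf_le_left (inf_Sq_ge inf_le_left (hN _ inf_le_right)) ?_
  have h1 := Subgroup.relIndex_mul_relIndex (⊥ : Subgroup G) (H ⊓ N) H bot_le inf_le_left
  rw [Subgroup.relIndex_bot_left, Subgroup.relIndex_bot_left] at h1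
  rw [← h1, mul_comm]
  refine Nat.mul_le_mul hb ?_
  exact Nat.le_of_dvd Nat.card_pos (Subgroup.card_dvd_of_le le_sup_left)

/-- index of `H ∩ N` in `H` at most the index of the normal subgroup `N` -/
theorem relIndex_inf_le [Finite G] (H N : Subgroup G) [N.Normal] :
    (H ⊓ N).relIndex H ∣ N.index := by
  rw [Subgroup.inf_relIndex_left]
  exact Subgroup.relIndex_dvd_index_of_normal N H

theorem RK_of_index_le [Finite G] {N : Subgroup G} [N.Normal] {a b : ℕ} (hN : RK a N)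
    (hb : N.index ≤ 2 ^ b) : RK (a + b) (⊤ : Subgroup G) := by
  intro H _
  refine add_of_relIndex hN ?_
  exact (Nat.le_of_dvd (Nat.pos_of_ne_zero Subgroup.index_ne_zero_of_finite)
    (relIndex_inf_le H N)).trans hb

/-- If `G/N` has order 8 and is not elementary abelian then its rank is at most two. -/
theorem RK_of_index_eight [Finite G] {N : Subgroup G} [N.Normal] {a : ℕ} (hN : RK a N)
    (h8 : N.index = 8) (hne : ∃ g : G, g * g ∉ N) : RK (a + 2) (⊤ : Subgroup G) := by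
  intro H _
  by_cases hH : (H ⊓ N).relIndex H ≤ 4
  · exact add_of_relIndex hN (by norm_num; exact hH)
  have hd := relIndex_inf_le H N
  rw [h8] at hd
  have h8' : (H ⊓ N).relIndex H = 8 := by
    have hle := Nat.le_of_dvd (by norm_num) hd
    interval_cases h : (H ⊓ N).relIndex H <;> omega
  -- H N = G
  have hind : (H ⊓ N).relIndex H = N.index := by rw [h8', h8]
  obtain ⟨h, hh, hh2⟩ : ∃ h ∈ H, h * h ∉ N := by
    by_contra hcon
    push Not at hcon
    obtain ⟨g, hg⟩ := hne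
    have htop : H ⊔ N = ⊤ := by
      have e1 : N.relIndex H = N.index := by rw [← Subgroup.inf_relIndex_left]; exact hind
      have e2 : N.relIndex (H ⊔ N) = N.relIndex H := by
        rw [sup_comm]; exact Subgroup.relIndex_sup_left _ _
      have e3 := Subgroup.relIndex_mul_index (le_sup_right : N ≤ H ⊔ N)
      rw [e2, e1] at e3
      have : (H ⊔ N).index = 1 := by
        have : N.index * (H ⊔ N).index = N.index * 1 := by rw [e3, mul_one]
        exact Nat.eq_of_mul_eq_mul_left (by rw [h8]; norm_num) this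
      exact Subgroup.index_eq_one.1 this
    have hgm : g ∈ H ⊔ N := by rw [htop]; trivial
    rw [Subgroup.mem_sup_of_normal_right] at hgm
    obtain ⟨x, hx, y, hy, rfl⟩ := hgm
    apply hg
    have hnn : (x⁻¹ * y * x) * y ∈ N := by
      refine N.mul_mem ?_ hy
      simpa using (inferInstance : N.Normal).conj_mem y hy x⁻¹
    have : x * y * (x * y) = (x * x) * ((x⁻¹ * y * x) * y) := by group
    rw [this]
    exact N.mul_mem (hcon x hx) hnn
  refine add (K := H ⊓ N) inf_le_left (inf_Sq_ge inf_le_left (hN _ inf_le_right)) ?_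
  have h1 := Subgroup.relIndex_mul_relIndex (⊥ : Subgroup G) (H ⊓ N) H bot_le inf_le_left
  rw [Subgroup.relIndex_bot_left, Subgroup.relIndex_bot_left, h8'] at h1
  -- |K ⊔ Sq H| ≥ 2 |K|
  have hlt : H ⊓ N < (H ⊓ N) ⊔ Sq H := by
    refine lt_of_le_of_ne le_sup_left ?_
    intro he
    have : h * h ∈ H ⊓ N := by
      rw [he]; exact Subgroup.mem_sup_right (sq_mem hh)
    exact hh2 this.2
  have hdvd := Subgroup.card_dvd_of_le hlt.le
  have hne' : Nat.card ↥(H ⊓ N) ≠ Nat.card ↥((H ⊓ N) ⊔ Sq H) := by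
    intro he
    exact hlt.ne (Subgroup.eq_of_le_of_card_ge hlt.le he.ge)
  obtain ⟨c, hc⟩ := hdvd
  have hc2 : 2 ≤ c := by
    rcases c with _ | _ | c
    · have : 0 < Nat.card ↥((H ⊓ N) ⊔ Sq H) := Nat.card_pos
      omega
    · exact absurd (by rw [hc]; ring) hne'
    · omega
  rw [← h1, hc]
  calc Nat.card ↥(H ⊓ N) * 8 = 2 ^ 2 * (Nat.card ↥(H ⊓ N) * 2) := by ring
    _ ≤ 2 ^ 2 * (Nat.card ↥(H ⊓ N) * c) :=
      Nat.mul_le_mul_left _ (Nat.mul_le_mul_left _ hc2)

end H87.MW1
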