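import Mathlib
import Cfsg.Prelude
import Cfsg.Agent.Lib.H87.MW1

set_option autoImplicit false
set_option maxHeartbeats 400000

/-! 2-groups `C` in which the elements of order dividing 4 are central: the subgroups `Om C i`. -/

namespace H87.MW2

open Subgroup H87.MW1

variable {G : Type*} [Group G]

/-- conjugate `x^g` -/
def cj (x g : G) : G := g⁻¹ * x * g
/-- commutator `[x,g]`, so that `x^g = x [x,g]` -/
def cm (x g : G) : G := x⁻¹ * g⁻¹ * x * g

theorem cj_eq (x g : G) : cj x g = x * cm x g := by unfold cj cm; group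
theorem cm_eq (x g : G) : cm x g = x⁻¹ * cj x g := by unfold cj cm; group
theorem cj_mul (x y g : G) : cj (x * y) g = cj x g * cj y g := by unfold cj; group
theorem cj_inv (x g : G) : cj x⁻¹ g = (cj x g)⁻¹ := by unfold cj; group
theorem cj_pow (x g : G) (n : ℕ) : cj (x ^ n) g = (cj x g) ^ n := by
  unfold cj
  induction n with
  | zero => simp
  | succ n ih => rw [pow_succ, pow_succ, ← ih]; group
theorem cj_cj (x g h : G) : cj (cj x g) h = cj x (g * h) := by unfold cj; group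
theorem cj_one (g : G) : cj (1 : G) g = 1 := by unfold cj; group
theorem cj_of_comm {x g : G} (h : x * g = g * x) : cj x g = x := by
  unfold cj; rw [mul_assoc, h]; group
theorem cm_of_comm {x g : G} (h : x * g = g * x) : cm x g = 1 := by
  rw [cm_eq, cj_of_comm h]; group
theorem comm_of_cm {x g : G} (h : cm x g = 1) : x * g = g * x := by
  have : cj x g = x := by rw [cj_eq, h, mul_one]
  unfold cj at this
  calc x * g = g * (g⁻¹ * x * g) := by group
    _ = g * x := by rw [this]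

/-- square of `x` conjugated : `(x^g)^2 = x^2 (c^x) c`, `c = [x,g]` -/
theorem sq_cm (x g : G) : cm (x * x) g = cj (cm x g) x * cm x g := by
  unfold cj cm; group

/-- `(x y)^2 = x^2 y^2 [y,x]^y` -/
theorem mul_sq (x y : G) : (x * y) * (x * y) = (x * x) * (y * y) * cj (cm y x) y := by
  unfold cj cm; group

structure Z2 (C : Subgroup G) : Prop where
  p : ∀ x ∈ C, ∃ n, x ^ (2 ^ n) = 1
  z : ∀ x ∈ C, x ^ 4 = 1 → ∀ y ∈ C, x * y = y * x

/-- the set of elements of `C` of order dividing `2^i` -/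
def OmS (C : Subgroup G) (i : ℕ) : Set G := {x | x ∈ C ∧ x ^ (2 ^ i) = 1}

theorem OmS_mono {C : Subgroup G} {i j : ℕ} (h : i ≤ j) : OmS C i ⊆ OmS C j := by
  rintro x ⟨hx, h1⟩
  refine ⟨hx, ?_⟩
  obtain ⟨k, rfl⟩ := Nat.exists_eq_add_of_le h
  rw [pow_add, pow_mul, h1, one_pow]

theorem OmS_sq {C : Subgroup G} {i : ℕ} {x : G} (hx : x ∈ C) : x ∈ OmS C (i + 1) ↔ x * x ∈ OmS C i := by
  constructor
  · rintro ⟨_, h⟩
    refine ⟨C.mul_mem hx hx, ?_⟩
    rw [← pow_two, ← pow_mul, ← pow_succ']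
    exact h
  · rintro ⟨_, h⟩
    refine ⟨hx, ?_⟩
    rw [← pow_two, ← pow_mul, ← pow_succ'] at h
    exact h

theorem OmS_one {C : Subgroup G} {i : ℕ} : (1 : G) ∈ OmS C i := ⟨C.one_mem, one_pow _⟩
theorem OmS_inv {C : Subgroup G} {i : ℕ} {x : G} (hx : x ∈ OmS C i) : x⁻¹ ∈ OmS C i :=
  ⟨C.inv_mem hx.1, by rw [inv_pow, hx.2, inv_one]⟩
theorem OmS_pow {C : Subgroup G} {i : ℕ} {x : G} (hx : x ∈ OmS C i) (k : ℕ) : x ^ k ∈ OmS C i :=
  ⟨C.pow_mem hx.1 k, by rw [← pow_mul, mul_comm, pow_mul, hx.2, one_pow]⟩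
theorem OmS_cj {C : Subgroup G} {i : ℕ} {x g : G} (hg : ∀ y ∈ C, cj y g ∈ C) (hx : x ∈ OmS C i) :
    cj x g ∈ OmS C i := ⟨hg x hx.1, by rw [← cj_pow, hx.2, cj_one]⟩

/-- an element outside `OmS C i` has a power of exact level `i+1` -/
theorem exists_pow {C : Subgroup G} (hp : ∀ x ∈ C, ∃ n, x ^ (2 ^ n) = 1) {c : G} (hc : c ∈ C)
    {i : ℕ} (h : c ∉ OmS C i) : ∃ k : ℕ, c ^ (2 ^ k) ∈ OmS C (i + 1) ∧ c ^ (2 ^ k) ∉ OmS C i := by
  obtain ⟨n, hn⟩ := hp c hc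
  have hex : ∃ k : ℕ, c ^ (2 ^ k) ∈ OmS C (i + 1) :=
    ⟨n, C.pow_mem hc _, by rw [hn, one_pow]⟩
  classical
  refine ⟨Nat.find hex, Nat.find_spec hex, ?_⟩
  rcases Nat.eq_zero_or_pos (Nat.find hex) with h0 | h0
  · rw [h0]; simpa using h
  · intro hcon
    have hlt : Nat.find hex - 1 < Nat.find hex := Nat.sub_lt h0 one_pos
    refine Nat.find_min hex hlt ?_
    rw [OmS_sq (C.pow_mem hc _), ← pow_two, ← pow_mul, ← pow_succ]
    rwa [Nat.sub_add_cancel h0]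

theorem pow_cong {H : Set G} (hmul : ∀ x ∈ H, ∀ y ∈ H, x * y ∈ H) (h1 : (1 : G) ∈ H) {m b : G}
    (hb : ∀ h ∈ H, cj h b ∈ H) (hm : m ∈ H) :
    ∀ k : ℕ, ∃ m' ∈ H, (b * m) ^ k = b ^ k * m' := by
  intro k
  induction k with
  | zero => exact ⟨1, h1, by simp⟩
  | succ k ih =>
    obtain ⟨m', hm', he⟩ := ih
    refine ⟨cj m' b * m, hmul _ (hb _ hm') _ hm, ?_⟩
    rw [pow_succ, he, pow_succ]
    unfold cj
    group

/-- The general inductive step. -/
theorem step {C : Subgroup G} (hp : ∀ x ∈ C, ∃ n, x ^ (2 ^ n) = 1) {i j : ℕ} {g : G}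
    (hgC : ∀ y ∈ C, cj y g ∈ C)
    (hA : ∀ x ∈ OmS C i, ∀ y ∈ OmS C i, x * y ∈ OmS C i)
    (hB : ∀ x ∈ OmS C (i + 2), ∀ y ∈ C, cm x y ∈ OmS C i)
    (h : ∀ x ∈ OmS C j, cm x g ∈ OmS C i) :
    ∀ x ∈ OmS C (j + 1), cm x g ∈ OmS C (i + 1) := by
  intro x hx
  have hxC : x ∈ C := hx.1
  have hcC : cm x g ∈ C := by
    rw [cm_eq]; exact C.mul_mem (C.inv_mem hxC) (hgC x hxC)
  by_contra hcon
  set c := cm x g with hc
  obtain ⟨k, hk1, hk2⟩ := exists_pow hp hcC hcon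
  set c' := c ^ (2 ^ k) with hc'
  have hm := h _ ((OmS_sq hxC).1 hx)
  rw [sq_cm, ← hc] at hm
  -- c^x = c⁻¹ * m'
  set m := cj c x * c with hmdef
  have hCcj : ∀ y ∈ C, ∀ z ∈ C, cj z y ∈ C := fun y hy z hz =>
    C.mul_mem (C.mul_mem (C.inv_mem hy) hz) hy
  have h1 : cj c x = c⁻¹ * cj m c⁻¹ := by
    rw [hmdef]; unfold cj; group
  obtain ⟨m', hm', he⟩ := pow_cong (H := OmS C i) hA OmS_one (m := cj m c⁻¹) (b := c⁻¹)
    (fun z hz => OmS_cj (hCcj _ (C.inv_mem hcC)) hz) (OmS_cj (hCcj _ (C.inv_mem hcC)) hm) (2 ^ k)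
  rw [← h1, ← cj_pow, ← hc', inv_pow, ← hc'] at he
  -- c'^x = c' * m''
  have h2 := hB c' hk1 x hxC
  have h3 : cj c' x = c' * cm c' x := cj_eq _ _
  rw [he] at h3
  -- c'⁻¹ m' = c' m''
  have h4 : c' * c' = cj (m' * (cm c' x)⁻¹) c'⁻¹ := by
    have : m' = c' * (c' * cm c' x) := by rw [← h3]; group
    rw [this]; unfold cj; group
  have h5 : c' * c' ∈ OmS C i := by
    rw [h4]
    exact OmS_cj (hCcj _ (C.inv_mem (C.pow_mem hcC _))) (hA _ hm' _ (OmS_inv h2))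
  exact hk2 ((OmS_sq (C.pow_mem hcC _)).2 h5)

/-- structure theorem -/
theorem main {C : Subgroup G} (hZ : Z2 C) : ∀ i : ℕ,
    (∀ x ∈ OmS C i, ∀ y ∈ OmS C i, x * y ∈ OmS C i) ∧
    (∀ x ∈ OmS C (i + 1), ∀ y ∈ OmS C (i + 1), x * y ∈ OmS C (i + 1)) ∧
    (∀ x ∈ OmS C (i + 2), ∀ y ∈ C, cm x y ∈ OmS C i) := by
  intro i
  induction i with
  | zero =>
    refine ⟨?_, ?_, ?_⟩
    · rintro x ⟨_, hx⟩ y ⟨_, hy⟩
      simp only [pow_zero, pow_one] at hx hy
      rw [hx, hy, mul_one]; exact OmS_one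
    · rintro x ⟨hxC, hx⟩ y ⟨hyC, hy⟩
      refine ⟨C.mul_mem hxC hyC, ?_⟩
      have h1 : x * y = y * x := by
        refine hZ.z x hxC ?_ y hyC
        have : x ^ 4 = (x ^ (2 ^ (0 + 1))) ^ 2 := by rw [← pow_mul]; norm_num
        rw [this, hx, one_pow]
      rw [(show Commute x y from h1).mul_pow, hx, hy, mul_one]
    · rintro x ⟨hxC, hx⟩ y hyC
      rw [cm_of_comm (hZ.z x hxC (by simpa using hx) y hyC)]
      exact OmS_one
  | succ i ih =>
    obtain ⟨hA, hA1, hB⟩ := ih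
    refine ⟨hA1, ?_, ?_⟩
    · intro x hx y hy
      have hxC := hx.1
      have hyC := hy.1
      rw [OmS_sq (C.mul_mem hxC hyC), mul_sq]
      have hc := hB y hy x hxC
      have hCcj : ∀ y ∈ C, ∀ z ∈ C, cj z y ∈ C := fun y hy z hz =>
        C.mul_mem (C.mul_mem (C.inv_mem hy) hz) hy
      refine hA1 _ (hA1 _ ((OmS_sq hxC).1 hx) _ ((OmS_sq hyC).1 hy)) _ ?_
      exact OmS_mono (Nat.le_succ i) (OmS_cj (hCcj y hyC) hc)
    · intro x hx y hyC
      exact step hZ.p (j := i + 2) (fun z hz => C.mul_mem (C.mul_mem (C.inv_mem hyC) hz) hyC)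
        hA hB (fun x hx => hB x hx y hyC) x hx

theorem Om_mul {C : Subgroup G} (hZ : Z2 C) {i : ℕ} {x y : G} (hx : x ∈ OmS C i) (hy : y ∈ OmS C i) :
    x * y ∈ OmS C i := (main hZ i).1 x hx y hy

theorem Om_cm {C : Subgroup G} (hZ : Z2 C) {i : ℕ} {x y : G} (hx : x ∈ OmS C (i + 2)) (hy : y ∈ C) :
    cm x y ∈ OmS C i := (main hZ i).2.2 x hx y hy

theorem C_cj {C : Subgroup G} {x y : G} (hx : x ∈ C) (hy : y ∈ C) : cj x y ∈ C :=
  C.mul_mem (C.mul_mem (C.inv_mem hy) hx) hy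

/-- `g` normalising `C`, acting trivially on `Ω₁`: level drops by one -/
theorem drop_one {C : Subgroup G} (hZ : Z2 C) {g : G} (hgC : ∀ y ∈ C, cj y g ∈ C)
    (h1 : ∀ x ∈ OmS C 1, cm x g = 1) (i : ℕ) : ∀ x ∈ OmS C (i + 1), cm x g ∈ OmS C i := by
  induction i with
  | zero => intro x hx; rw [h1 x hx]; exact OmS_one
  | succ i ih =>
    exact step hZ.p hgC (main hZ i).1 (main hZ i).2.2 ih

/-- `g` normalising `C`, acting trivially on `Ω₂`: level drops by two -/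
theorem drop_two {C : Subgroup G} (hZ : Z2 C) {g : G} (hgC : ∀ y ∈ C, cj y g ∈ C)
    (h1 : ∀ x ∈ OmS C 2, cm x g = 1) (i : ℕ) : ∀ x ∈ OmS C (i + 2), cm x g ∈ OmS C i := by
  induction i with
  | zero => intro x hx; rw [h1 x hx]; exact OmS_one
  | succ i ih =>
    exact step hZ.p hgC (main hZ i).1 (main hZ i).2.2 ih

/-- the top power is multiplicative on `Ω_{i+1}` -/
theorem mul_pow_top {C : Subgroup G} (hZ : Z2 C) (i : ℕ) : ∀ x ∈ OmS C (i + 1), ∀ y ∈ OmS C (i + 1),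
    (x * y) ^ (2 ^ i) = x ^ (2 ^ i) * y ^ (2 ^ i) := by
  induction i with
  | zero => intro x _ y _; simp
  | succ i ih =>
    intro x hx y hy
    have hxC := hx.1
    have hyC := hy.1
    have e : ∀ z : G, z ^ (2 ^ (i + 1)) = (z * z) ^ (2 ^ i) := by
      intro z; rw [← pow_two, ← pow_mul, ← pow_succ']
    rw [e, e x, e y, mul_sq]
    have hx2 := (OmS_sq hxC).1 hx
    have hy2 := (OmS_sq hyC).1 hy
    have hc := Om_cm hZ hy hxC
    have hc' : cj (cm y x) y ∈ OmS C i := OmS_cj (fun z hz => C_cj hz hyC) hc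
    rw [ih _ (Om_mul hZ hx2 hy2) _ (OmS_mono (Nat.le_succ i) hc'), ih _ hx2 _ hy2, hc'.2, mul_one]

/-- if `x^2 = (x c)^2` then `c ∈ Ω₁` -/
theorem sq_inj {C : Subgroup G} (hZ : Z2 C) {x y : G} (hx : x ∈ C) (hy : y ∈ C)
    (h : x * x = y * y) : x⁻¹ * y ∈ OmS C 1 := by
  set c := x⁻¹ * y with hc
  have hcC : c ∈ C := C.mul_mem (C.inv_mem hx) hy
  have h1 : cj c x = c⁻¹ := by
    have hy' : y = x * c := by rw [hc]; group
    rw [hy'] at h
    unfold cj
    calc x⁻¹ * c * x = x⁻¹ * x⁻¹ * ((x * c) * (x * c)) * c⁻¹ := by group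
      _ = x⁻¹ * x⁻¹ * (x * x) * c⁻¹ := by rw [← h]
      _ = c⁻¹ := by group
  by_contra hcon
  obtain ⟨k, hk1, hk2⟩ := exists_pow hZ.p hcC hcon
  set c' := c ^ (2 ^ k) with hc'
  have h2 : cj c' x = c'⁻¹ := by rw [hc', cj_pow, h1, inv_pow]
  have h3 : cj c' x = c' := by
    refine cj_of_comm (hZ.z c' (C.pow_mem hcC _) ?_ x hx)
    have := hk1.2
    simpa using this
  refine hk2 ⟨C.pow_mem hcC _, ?_⟩
  rw [h3] at h2
  rw [pow_one, pow_two]
  nth_rw 1 [h2]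
  group

theorem Z2.sub {C K : Subgroup G} (hZ : Z2 C) (h : K ≤ C) : Z2 K :=
  ⟨fun x hx => hZ.p x (h hx), fun x hx h4 y hy => hZ.z x (h hx) h4 y (h hy)⟩

/-- count of squares -/
theorem card_le_sq [Finite G] {C : Subgroup G} (hZ : Z2 C) :
    Nat.card C ≤ Nat.card (OmS C 1) * Nat.card {s : G | ∃ h ∈ C, s = h * h} := by
  classical
  -- choose a square root for each square
  let S := {s : G | ∃ h ∈ C, s = h * h}
  let f : C → (OmS C 1) × S := fun x =>
    have hex : ∃ h ∈ C, (x : G) * x = h * h := ⟨x, x.2, rfl⟩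
    (⟨(hex.choose)⁻¹ * x, sq_inj hZ hex.choose_spec.1 x.2 hex.choose_spec.2.symm⟩,
      ⟨(x : G) * x, hex⟩)
  have hinj : Function.Injective f := by
    intro x y hxy
    have h2 : (x : G) * x = y * y := by
      have := congrArg (fun p => ((p.2 : S) : G)) hxy
      exact this
    have h1 := congrArg (fun p => ((p.1 : OmS C 1) : G)) hxy
    simp only [f] at h1
    have key : ∀ (a b : G) (ha : ∃ h ∈ C, a = h * h) (hb : ∃ h ∈ C, b = h * h), a = b →
        ha.choose = hb.choose := by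
      intro a b ha hb hab
      subst hab
      rfl
    have h3 := key _ _ (⟨x, x.2, rfl⟩ : ∃ h ∈ C, (x : G) * x = h * h)
      (⟨y, y.2, rfl⟩ : ∃ h ∈ C, (y : G) * y = h * h) h2
    rw [h3] at h1
    exact Subtype.ext (mul_left_cancel h1)
  have := Nat.card_le_card_of_injective f hinj
  rwa [Nat.card_prod] at this

theorem card_le_of_Om [Finite G] {C : Subgroup G} (hZ : Z2 C) :
    Nat.card C ≤ Nat.card (OmS C 1) * Nat.card (Sq C) := by
  refine (card_le_sq hZ).trans (Nat.mul_le_mul_left _ ?_)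
  refine Nat.card_le_card_of_injective
    (fun s : {s : G | ∃ h ∈ C, s = h * h} => (⟨s.1, Subgroup.subset_closure s.2⟩ : Sq C)) ?_
  intro a b hab
  exact Subtype.ext (congrArg (fun z : Sq C => (z : G)) hab)

/-- in the extreme case every element of `Sq C` is a square -/
theorem sq_of_card [Finite G] {C : Subgroup G} (hZ : Z2 C)
    (h : Nat.card (OmS C 1) * Nat.card (Sq C) ≤ Nat.card C) {s : G} (hs : s ∈ Sq C) :
    ∃ h ∈ C, s = h * h := by
  have h1 := h.trans (card_le_sq hZ)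
  have h0 : 0 < Nat.card (OmS C 1) := by
    haveI : Nonempty (OmS C 1) := ⟨⟨1, OmS_one⟩⟩
    exact Nat.card_pos
  have h2 := Nat.le_of_mul_le_mul_left h1 h0
  set S := {s : G | ∃ h ∈ C, s = h * h} with hS
  have hsub : S ⊆ (Sq C : Set G) := Subgroup.subset_closure
  have heq : S = (Sq C : Set G) := by
    refine Set.eq_of_subset_of_ncard_le hsub ?_ (Set.toFinite _)
    rw [← Nat.card_coe_set_eq, ← Nat.card_coe_set_eq]
    exact h2
  have : s ∈ S := by rw [heq]; exact hs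
  exact this

end H87.MW2
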