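import Mathlib
import Cfsg.Prelude
import Cfsg.Agent.Lib.H87.MW2
import Cfsg.Agent.Lib.H82.DLen1

set_option autoImplicit false
set_option maxHeartbeats 400000

/-! Alperin: a maximal normal abelian subgroup of exponent dividing 4. -/

namespace H87.MW3

open Subgroup H87.MW1 H87.MW2

variable {G : Type*} [Group G]

theorem p4 (z : G) : z ^ 4 = (z * z) * (z * z) := by
  rw [← pow_two, ← pow_two, ← pow_mul]

theorem two_step [Finite G] {L T : Subgroup G} (h : L ≤ T) (hc : Nat.card T = Nat.card L * 2) {a b : G}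
    (ha : a ∈ T) (hb : b ∈ T) (ha' : a ∉ L) (hb' : b ∉ L) : a * b ∈ L := by
  have h1 : L.relIndex T = 2 := by
    have := Subgroup.relIndex_mul_relIndex (⊥ : Subgroup G) L T bot_le h
    rw [Subgroup.relIndex_bot_left, Subgroup.relIndex_bot_left, hc] at this
    exact Nat.eq_of_mul_eq_mul_left Nat.card_pos this
  have h2 : (L.subgroupOf T).index = 2 := h1
  have h3 := Subgroup.mul_mem_iff_of_index_two h2 (a := ⟨a, ha⟩) (b := ⟨b, hb⟩)
  rw [Subgroup.mem_subgroupOf, Subgroup.mem_subgroupOf, Subgroup.mem_subgroupOf] at h3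
  exact h3.2 (by simp [ha', hb'])

theorem conj_mem' {N : Subgroup G} [hN : N.Normal] {x : G} (hx : x ∈ N) (g : G) : cj x g ∈ N := by
  unfold cj
  simpa using hN.conj_mem x hx g⁻¹

/-- adjoining `x` to an abelian normal subgroup `W` -/
theorem adjoin {W : Subgroup G} [hWn : W.Normal] (hab : ∀ x ∈ W, ∀ y ∈ W, x * y = y * x)
    {x : G} (hx : ∀ w ∈ W, w * x = x * w) (hxg : ∀ g : G, cm x g ∈ W) :
    (W ⊔ zpowers x).Normal ∧ (∀ a ∈ W ⊔ zpowers x, ∀ b ∈ W ⊔ zpowers x, a * b = b * a) ∧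
    (∀ n : ℕ, (∀ w ∈ W, w ^ n = 1) → x ^ n = 1 → ∀ a ∈ W ⊔ zpowers x, a ^ n = 1) := by
  have hform : ∀ a ∈ W ⊔ zpowers x, ∃ w ∈ W, ∃ i : ℤ, a = w * x ^ i := by
    intro a ha
    rw [Subgroup.mem_sup_of_normal_left] at ha
    obtain ⟨w, hw, y, hy, rfl⟩ := ha
    obtain ⟨i, rfl⟩ := Subgroup.mem_zpowers_iff.1 hy
    exact ⟨w, hw, i, rfl⟩
  refine ⟨?_, ?_, ?_⟩
  · constructor
    intro a ha g
    have h1 : (W ⊔ zpowers x) ≤ (W ⊔ zpowers x).comap (MulAut.conj g).toMonoidHom := by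
      refine sup_le ?_ ?_
      · intro w hw
        rw [Subgroup.mem_comap]
        refine Subgroup.mem_sup_left ?_
        simpa using hWn.conj_mem w hw g
      · rw [Subgroup.zpowers_le, Subgroup.mem_comap]
        have h2 := hxg g⁻¹
        have h3 : (MulAut.conj g).toMonoidHom x = x * cm x g⁻¹ := by
          unfold cm; simp [MulAut.conj_apply, mul_assoc]
        rw [h3]
        exact Subgroup.mul_mem _ (Subgroup.mem_sup_right (Subgroup.mem_zpowers x))
          (Subgroup.mem_sup_left h2)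
    have := h1 ha
    rw [Subgroup.mem_comap] at this
    simpa using this
  · intro a ha b hb
    obtain ⟨w, hw, i, rfl⟩ := hform a ha
    obtain ⟨v, hv, j, rfl⟩ := hform b hb
    have c1 : Commute w v := hab w hw v hv
    have c2 : Commute w x := hx w hw
    have c3 : Commute v x := hx v hv
    have c4 : Commute (w * x ^ i) (v * x ^ j) :=
      (c1.mul_right (c2.zpow_right j)).mul_left
        (((c3.zpow_right i).symm).mul_right (Commute.zpow_zpow_self x i j))
    exact c4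
  · intro n hWn' hxn a ha
    obtain ⟨w, hw, i, rfl⟩ := hform a ha
    have c2 : Commute w x := hx w hw
    rw [(c2.zpow_right i).mul_pow, hWn' w hw, one_mul, ← zpow_natCast, ← zpow_mul, mul_comm,
      zpow_mul, zpow_natCast, hxn, one_zpow]

theorem exists_W [Finite G] (hG : IsPGroup 2 G) : ∃ W : Subgroup G, W.Normal ∧
    (∀ x ∈ W, ∀ y ∈ W, x * y = y * x) ∧ (∀ x ∈ W, x ^ 4 = 1) ∧
    ∀ x ∈ centralizer (W : Set G), x ^ 4 = 1 → x ∈ W := by
  haveI : Fact (Nat.Prime 2) := ⟨Nat.prime_two⟩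
  let SW : Set (Subgroup G) := {W | W.Normal ∧ (∀ x ∈ W, ∀ y ∈ W, x * y = y * x) ∧ (∀ x ∈ W, x ^ 4 = 1)}
  obtain ⟨W, hW⟩ := (Set.toFinite SW).exists_maximal ⟨⊥, by
    refine ⟨inferInstance, ?_, ?_⟩
    · intro x hx y hy; rw [Subgroup.mem_bot] at hx hy; rw [hx, hy]
    · intro x hx; rw [Subgroup.mem_bot] at hx; rw [hx, one_pow]⟩
  obtain ⟨hWn, hab, h4⟩ := hW.1
  refine ⟨W, hWn, hab, h4, ?_⟩
  set C := centralizer (W : Set G) with hC
  haveI hCn : C.Normal := by rw [hC]; infer_instance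
  have hWC : W ≤ C := fun x hx => Subgroup.mem_centralizer_iff.2 fun y hy => hab y hy x hx
  let SL : Set (Subgroup G) := {L | L.Normal ∧ W ≤ L ∧ L ≤ C ∧ ∀ x ∈ L, x ^ 4 = 1 → x ∈ W}
  obtain ⟨L, hL⟩ := (Set.toFinite SL).exists_maximal ⟨W, hWn, le_rfl, hWC, fun x hx _ => hx⟩
  obtain ⟨hLn, hWL, hLC, hL4⟩ := hL.1
  by_cases hLCe : L = C
  · rw [← hLCe]; exact hL4
  exfalso
  obtain ⟨T, hTn, hLT, hTC, hTcard⟩ := H82.DLen.exists_step hG hLC hLCe
  have hTne : T ∉ SL := by
    intro hT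
    have := hL.2 hT hLT
    have e : T = L := le_antisymm this hLT
    rw [e] at hTcard
    have : 0 < Nat.card L := Nat.card_pos
    omega
  have hex : ∃ x ∈ T, x ^ 4 = 1 ∧ x ∉ W := by
    by_contra hcon
    push Not at hcon
    exact hTne ⟨hTn, hWL.trans hLT, hTC, hcon⟩
  obtain ⟨x, hxT, hx4, hxW⟩ := hex
  have hxL : x ∉ L := fun h => hxW (hL4 x h hx4)
  have hxC : x ∈ C := hTC hxT
  have hxw : ∀ w ∈ W, w * x = x * w := fun w hw => Subgroup.mem_centralizer_iff.1 hxC w hw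
  have hp : ∀ (X : Subgroup G), ∀ x ∈ X, ∃ n, x ^ (2 ^ n) = 1 := fun X x _ => hG x
  have hZ : Z2 L := by
    refine ⟨hp L, ?_⟩
    intro z hz hz4 y hy
    have := hL4 z hz hz4
    exact Subgroup.mem_centralizer_iff.1 (hLC hy) z this
  have hcen : ∀ z ∈ OmS L 2, cm z x = 1 := by
    intro z hz
    refine cm_of_comm (hxw z (hL4 z hz.1 ?_))
    simpa using hz.2
  have hdrop := drop_two hZ (g := x) (fun y hy => conj_mem' hy x) hcen 1
  have hxg : ∀ g : G, cm x g ∈ W := by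
    intro g
    have hyL : cm x g ∈ L := by
      rw [cm_eq]
      refine two_step hLT hTcard (T.inv_mem hxT) (conj_mem' hxT g) ?_ ?_
      · intro h; exact hxL (by simpa using L.inv_mem h)
      · intro h
        have : cj (cj x g) g⁻¹ ∈ L := conj_mem' h g⁻¹
        rw [cj_cj, mul_inv_cancel] at this
        apply hxL
        simpa [cj] using this
    set y := cm x g with hy
    have hx2 : x * x ∈ L := two_step hLT hTcard hxT hxT hxL hxL
    have hx2' : x * x ∈ OmS L 1 := ⟨hx2, by rw [pow_one, pow_two, ← p4, hx4]⟩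
    have h14 : ∀ z ∈ OmS L 1, ∀ w ∈ L, z * w = w * z := by
      intro z hz w hw
      refine hZ.z z hz.1 ?_ w hw
      have h2 := hz.2
      rw [pow_one] at h2
      calc z ^ 4 = (z ^ 2) ^ 2 := by rw [← pow_mul]
        _ = 1 := by rw [h2, one_pow]
    set e := cj y x * y with he
    have heL : e ∈ L := L.mul_mem (conj_mem' hyL x) hyL
    have hxy : (x * y) * (x * y) = (x * x) * e := by rw [he]; unfold cj; group
    have hxy4 : (x * y) ^ 4 = 1 := by
      rw [hy, ← cj_eq, ← cj_pow, hx4, cj_one]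
    have he2 : e * e = 1 := by
      have h1 : (x * y) ^ 4 = ((x * x) * e) * ((x * x) * e) := by rw [← hxy, p4]
      have h2 : ((x * x) * e) * ((x * x) * e) = x ^ 4 * (e * e) := by
        have := h14 _ hx2' e heL
        calc ((x * x) * e) * ((x * x) * e) = (x * x) * (e * (x * x)) * e := by group
          _ = (x * x) * ((x * x) * e) * e := by rw [this]
          _ = x ^ 4 * (e * e) := by rw [p4]; group
      rw [hxy4, h2, hx4, one_mul] at h1
      exact h1.symm
    have he1 : e ∈ OmS L 1 := ⟨heL, by rw [pow_one, pow_two, he2]⟩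
    have hcjy : cj y x = e * y⁻¹ := by rw [he]; group
    have hy2 : y ∈ OmS L 2 := by
      by_contra hcon
      obtain ⟨k, hk1, hk2⟩ := exists_pow hZ.p hyL hcon
      set y' := y ^ (2 ^ k) with hy'
      have h1 := hdrop y' hk1
      have h2 : cj y' x = e ^ (2 ^ k) * y'⁻¹ := by
        rw [hy', cj_pow, hcjy, (show Commute e y⁻¹ from h14 e he1 _ (L.inv_mem hyL)).mul_pow, inv_pow]
      have h3 : cm y' x = e ^ (2 ^ k) * (y'⁻¹ * y'⁻¹) := by
        rw [cm_eq, h2, ← mul_assoc, ← h14 _ (OmS_pow he1 _) y'⁻¹ (L.inv_mem hk1.1), mul_assoc]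
      have h4 : y'⁻¹ * y'⁻¹ ∈ OmS L 1 := by
        have : y'⁻¹ * y'⁻¹ = (e ^ (2 ^ k))⁻¹ * cm y' x := by rw [h3]; group
        rw [this]
        exact Om_mul hZ (OmS_inv (OmS_pow he1 _)) h1
      apply hk2
      rw [OmS_sq hk1.1]
      have := OmS_inv h4
      simpa using this
    exact hL4 y hyL (by simpa using hy2.2)
  obtain ⟨a1, a2, a3⟩ := adjoin hab hxw hxg
  have hmem : W ⊔ zpowers x ∈ SW := ⟨a1, a2, a3 4 h4 hx4⟩
  have hle := hW.2 hmem le_sup_left
  exact hxW (hle (Subgroup.mem_sup_right (Subgroup.mem_zpowers x)))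

end H87.MW3
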