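import Mathlib
import Cfsg.Prelude
import Cfsg.Agent.Lib.H87.MW3

set_option autoImplicit false
set_option maxHeartbeats 400000

/-! The context of the maximal normal abelian subgroup of exponent four. -/

namespace H87.MW4

open Subgroup H87.MW1 H87.MW2 H87.MW3

variable {G : Type*} [Group G]

structure Cx (W : Subgroup G) : Prop where
  n : W.Normal
  ab : ∀ x ∈ W, ∀ y ∈ W, x * y = y * x
  h4 : ∀ x ∈ W, x ^ 4 = 1
  c : ∀ x ∈ centralizer (W : Set G), x ^ 4 = 1 → x ∈ W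
  p : ∀ x : G, ∃ n, x ^ (2 ^ n) = 1

abbrev Cc (W : Subgroup G) : Subgroup G := centralizer (W : Set G)

variable {W : Subgroup G}

namespace Cx

theorem WC (h : Cx W) : W ≤ Cc W := fun x hx =>
  Subgroup.mem_centralizer_iff.2 fun y hy => h.ab y hy x hx

theorem comm (_h : Cx W) {w c : G} (hw : w ∈ W) (hc : c ∈ Cc W) : w * c = c * w :=
  Subgroup.mem_centralizer_iff.1 hc w hw

theorem Cn (h : Cx W) : (Cc W).Normal := by haveI := h.n; infer_instance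

theorem z2 (h : Cx W) : Z2 (Cc W) :=
  ⟨fun x _ => h.p x, fun x hx hx4 _ hy => h.comm (h.c x hx hx4) hy⟩

theorem om2 (h : Cx W) {x : G} : x ∈ OmS (Cc W) 2 ↔ x ∈ W := by
  constructor
  · rintro ⟨h1, h2⟩; exact h.c x h1 (by simpa using h2)
  · intro hx; exact ⟨h.WC hx, by simpa using h.h4 x hx⟩

theorem om1W (h : Cx W) {x : G} (hx : x ∈ OmS (Cc W) 1) : x ∈ W := h.om2.1 (OmS_mono (by norm_num) hx)

theorem om1 (h : Cx W) {x : G} : x ∈ OmS (Cc W) 1 ↔ x ∈ W ∧ x * x = 1 := by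
  constructor
  · intro hx
    refine ⟨h.om1W hx, ?_⟩
    have := hx.2
    rwa [pow_one, pow_two] at this
  · rintro ⟨h1, h2⟩; exact ⟨h.WC h1, by rw [pow_one, pow_two, h2]⟩

theorem sqW (h : Cx W) {w : G} (hw : w ∈ W) : w * w ∈ OmS (Cc W) 1 :=
  (OmS_sq (h.WC hw)).1 (h.om2.2 hw)

theorem cjC (h : Cx W) {x : G} (hx : x ∈ Cc W) (g : G) : cj x g ∈ Cc W := by
  haveI := h.Cn; exact conj_mem' hx g

theorem cjW (h : Cx W) {x : G} (hx : x ∈ W) (g : G) : cj x g ∈ W := by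
  haveI := h.n; exact conj_mem' hx g

theorem cjOm (h : Cx W) {x : G} {i : ℕ} (hx : x ∈ OmS (Cc W) i) (g : G) : cj x g ∈ OmS (Cc W) i :=
  OmS_cj (fun _ hy => h.cjC hy g) hx

theorem mul1 (h : Cx W) {x y : G} (hx : x ∈ OmS (Cc W) 1) (hy : y ∈ OmS (Cc W) 1) :
    x * y ∈ OmS (Cc W) 1 := Om_mul h.z2 hx hy

theorem sq1 (h : Cx W) {x : G} (hx : x ∈ OmS (Cc W) 1) : x * x = 1 := (h.om1.1 hx).2

end Cx

/-- `y` centralises `Ω₁` -/
def Mem (W : Subgroup G) (y : G) : Prop := ∀ z ∈ OmS (Cc W) 1, z * y = y * z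

theorem Mem.mul {y z : G} (hy : Mem W y) (hz : Mem W z) : Mem W (y * z) := fun x hx => by
  rw [← mul_assoc, hy x hx, mul_assoc, hz x hx, mul_assoc]

theorem Mem.inv {y : G} (hy : Mem W y) : Mem W y⁻¹ := fun x hx => by
  have := hy x hx
  calc x * y⁻¹ = y⁻¹ * (y * x) * y⁻¹ := by group
    _ = y⁻¹ * (x * y) * y⁻¹ := by rw [this]
    _ = y⁻¹ * x := by group

theorem Mem.cj (h : Cx W) {y : G} (hy : Mem W y) (g : G) : Mem W (cj y g) := fun x hx => by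
  have h1 := hy _ (h.cjOm hx g⁻¹)
  unfold MW2.cj at h1 ⊢
  calc x * (g⁻¹ * y * g) = g⁻¹ * ((g⁻¹⁻¹ * x * g⁻¹) * y) * g := by group
    _ = g⁻¹ * (y * (g⁻¹⁻¹ * x * g⁻¹)) * g := by rw [h1]
    _ = g⁻¹ * y * g * x := by group

theorem Mem.ofC (h : Cx W) {y : G} (hy : y ∈ Cc W) : Mem W y := fun _ hx => h.comm (h.om1W hx) hy

/-- drop by one level under `M` -/
theorem drop (h : Cx W) {y : G} (hy : Mem W y) {i : ℕ} {x : G} (hx : x ∈ OmS (Cc W) (i + 1)) :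
    cm x y ∈ OmS (Cc W) i :=
  drop_one h.z2 (fun _ hz => h.cjC hz y) (fun z hz => cm_of_comm (hy z hz)) i x hx

theorem cmW (h : Cx W) {y w : G} (hy : Mem W y) (hw : w ∈ W) : cm w y ∈ OmS (Cc W) 1 :=
  drop h hy (h.om2.2 hw)

theorem cj_fix {x y : G} (hxy : x * y = y * x) : cj x y = x := cj_of_comm hxy

/-- multiplicativity in `y` -/
theorem cm_mul_right (h : Cx W) {y z w : G} (hy : Mem W y) (hz : Mem W z) (hw : w ∈ W) :
    cm w (y * z) = cm w y * cm w z := by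
  have h1 : cm w (y * z) = cm w z * cj (cm w y) z := by unfold cm cj; group
  rw [h1, cj_fix (hz _ (cmW h hy hw))]
  exact h.ab _ (h.om1W (cmW h hz hw)) _ (h.om1W (cmW h hy hw))

theorem cm_mul_left (h : Cx W) {y w u : G} (hy : Mem W y) (hw : w ∈ W) (hu : u ∈ W) :
    cm (w * u) y = cm w y * cm u y := by
  have h1 : cm (w * u) y = cj (cm w y) u * cm u y := by unfold cm cj; group
  rw [h1, cj_fix (h.ab _ (h.om1W (cmW h hy hw)) u hu)]

/-- depends on the square only -/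
theorem cm_eq_of_sq (h : Cx W) {y w u : G} (hy : Mem W y) (hw : w ∈ W) (hu : u ∈ W)
    (hwu : w * w = u * u) : cm w y = cm u y := by
  have h1 := sq_inj h.z2 (h.WC hw) (h.WC hu) hwu
  have h2 : u = w * (w⁻¹ * u) := by group
  rw [h2, cm_mul_left h hy hw (h.om1W h1), cm_of_comm (hy _ h1), mul_one]

theorem cm_inv_right (h : Cx W) {y w : G} (hy : Mem W y) (hw : w ∈ W) : cm w y⁻¹ = cm w y := by
  have h1 := cm_mul_right h hy hy.inv hw
  rw [mul_inv_cancel, cm_of_comm (show w * 1 = 1 * w by simp)] at h1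
  have h2 := h.sq1 (cmW h hy hw)
  calc cm w y⁻¹ = cm w y * cm w y * cm w y⁻¹ := by rw [h2, one_mul]
    _ = cm w y := by rw [mul_assoc, ← h1, mul_one]

/-- leading term formula -/
theorem lead (h : Cx W) {y : G} (hy : Mem W y) : ∀ (j : ℕ) (k : G), k ∈ OmS (Cc W) (j + 2) →
    ∀ w ∈ W, w * w = k ^ (2 ^ (j + 1)) → (cm k y) ^ (2 ^ j) = cm w y := by
  intro j
  induction j with
  | zero =>
    intro k hk w hw hwk
    rw [pow_zero, pow_one]
    refine cm_eq_of_sq h hy (h.om2.1 hk) hw ?_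
    rw [hwk]
    simp [pow_two]
  | succ j ih =>
    intro k hk w hw hwk
    have hkC := hk.1
    have hk2 := (OmS_sq hkC).1 hk
    have e1 : (k * k) ^ (2 ^ (j + 1)) = k ^ (2 ^ (j + 1 + 1)) := by
      rw [← pow_two, ← pow_mul, ← pow_succ']
    have h1 := ih (k * k) hk2 w hw (by rw [e1, hwk])
    rw [← h1, sq_cm]
    set c := cm k y with hc
    have hcm : c ∈ OmS (Cc W) (j + 2) := drop h hy hk
    have hcC := hcm.1
    have h2 := Om_cm h.z2 hcm hkC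
    have h3 : cj c k * c = (c * c) * cj (cm c k) c := by unfold cj cm; group
    rw [h3, mul_pow_top h.z2 j _ ((OmS_sq hcC).1 hcm) _
      (OmS_mono (Nat.le_succ j) (OmS_cj (fun z hz => C_cj hz hcC) h2))]
    have h4 : (cj (cm c k) c) ^ (2 ^ j) = 1 := (OmS_cj (fun z hz => C_cj hz hcC) h2).2
    rw [h4, mul_one, ← pow_two, ← pow_mul, ← pow_succ']

/-- every `y²`, `y ∈ M`, lies in `C` -/
theorem sqC (h : Cx W) {y : G} (hy : Mem W y) : y * y ∈ Cc W := by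
  refine Subgroup.mem_centralizer_iff.2 fun w hw => ?_
  refine comm_of_cm ?_
  rw [cm_mul_right h hy hy hw]
  exact h.sq1 (cmW h hy hw)

theorem cmC (h : Cx W) {y z : G} (hy : Mem W y) (hz : Mem W z) : cm y z ∈ Cc W := by
  have : cm y z = y⁻¹ * z⁻¹ * (y * z) := by unfold cm; group
  rw [this]
  refine Subgroup.mem_centralizer_iff.2 fun w hw => ?_
  refine comm_of_cm ?_
  rw [cm_mul_right h (hy.inv.mul hz.inv) (hy.mul hz) hw, cm_mul_right h hy.inv hz.inv hw,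
    cm_mul_right h hy hz hw, cm_inv_right h hy hw, cm_inv_right h hz hw]
  have h1 := cmW h hy hw
  have h2 := cmW h hz hw
  exact h.sq1 (h.mul1 h1 h2)

/-- an element of `C` outside `Ω₁` has a power `w ∈ W \ Ω₁` -/
theorem powW (h : Cx W) {c : G} (hc : c ∈ Cc W) (hc1 : c ∉ OmS (Cc W) 1) :
    ∃ k : ℕ, c ^ (2 ^ k) ∈ W ∧ c ^ (2 ^ k) ∉ OmS (Cc W) 1 := by
  obtain ⟨k, hk1, hk2⟩ := exists_pow h.z2.p hc hc1
  exact ⟨k, h.om2.1 hk1, hk2⟩

/-- Fact 2 -/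
theorem small_of_inv (h : Cx W) {y : G} (hy : Mem W y)
    (hinv : ∀ w ∈ W, cm w y = 1 → w ∈ OmS (Cc W) 1) : y * y ∈ OmS (Cc W) 1 := by
  by_contra hcon
  obtain ⟨k, hk1, hk2⟩ := powW h (sqC h hy) hcon
  refine hk2 (hinv _ hk1 (cm_of_comm ?_))
  have : Commute (y * y) y := (Commute.refl y).mul_left (Commute.refl y)
  exact (this.pow_left _)

/-- Fact 3 -/
theorem mem_W_of_small (h : Cx W) {y c : G} (hy : Mem W y) (hc : c ∈ Cc W)
    (h1 : ∀ w ∈ W, cj w y = w⁻¹ → w ∈ OmS (Cc W) 1)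
    (hs : cj c y * c ∈ OmS (Cc W) 1) : c ∈ W := by
  by_contra hcon
  have hc2 : c * c ∉ OmS (Cc W) 1 := by
    intro hh
    exact hcon (h.om2.1 ((OmS_sq hc).2 hh))
  obtain ⟨k, hk1, hk2⟩ := powW h ((Cc W).mul_mem hc hc) hc2
  refine hk2 (h1 _ hk1 ?_)
  set z := cj c y * c with hz
  have e1 : cj c y = z * c⁻¹ := by rw [hz]; group
  have hzc : z * c⁻¹ = c⁻¹ * z := h.comm (h.om1W hs) ((Cc W).inv_mem hc)
  have e2 : cj (c * c) y = (c * c)⁻¹ := by
    rw [cj_mul, e1]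
    calc z * c⁻¹ * (z * c⁻¹) = z * (c⁻¹ * z) * c⁻¹ := by group
      _ = z * (z * c⁻¹) * c⁻¹ := by rw [hzc]
      _ = (z * z) * (c * c)⁻¹ := by group
      _ = _ := by rw [h.sq1 hs, one_mul]
  rw [cj_pow, e2, inv_pow]

end H87.MW4
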