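import Mathlib
import Cfsg.Prelude
import Cfsg.Agent.Lib.H87.MW4

set_option autoImplicit false
set_option maxHeartbeats 400000

/-! The homocyclic case `W = C4 x C4`. -/

namespace H87.MW5

open Subgroup H87.MW1 H87.MW2 H87.MW3 H87.MW4

variable {G : Type*} [Group G] {W : Subgroup G}

structure Bx (W : Subgroup G) (a b v p : G) : Prop where
  cx : Cx W
  ha : a ∈ W
  hb : b ∈ W
  hav : a * a = v
  hbp : b * b = p
  hv : v ≠ 1
  hp : p ≠ 1
  hvp : v ≠ p
  w0 : ∀ z ∈ OmS (Cc W) 1, z = 1 ∨ z = v ∨ z = p ∨ z = v * p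

variable {a b v p : G}

namespace Bx

theorem v1 (h : Bx W a b v p) : v ∈ OmS (Cc W) 1 := by rw [← h.hav]; exact h.cx.sqW h.ha
theorem p1 (h : Bx W a b v p) : p ∈ OmS (Cc W) 1 := by rw [← h.hbp]; exact h.cx.sqW h.hb
theorem vv (h : Bx W a b v p) : v * v = 1 := h.cx.sq1 h.v1
theorem pp (h : Bx W a b v p) : p * p = 1 := h.cx.sq1 h.p1
theorem vp1 (h : Bx W a b v p) : v * p ∈ OmS (Cc W) 1 := h.cx.mul1 h.v1 h.p1
theorem pv (h : Bx W a b v p) : p * v = v * p := h.cx.ab _ (h.cx.om1W h.p1) _ (h.cx.om1W h.v1)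
theorem vvp (h : Bx W a b v p) : v * (v * p) = p := by rw [← mul_assoc, h.vv, one_mul]
theorem vpp (h : Bx W a b v p) : v * p * p = v := by rw [mul_assoc, h.pp, mul_one]
theorem vpv (h : Bx W a b v p) : v * p * v = p := by rw [mul_assoc, h.pv, h.vvp]
theorem pvp (h : Bx W a b v p) : p * (v * p) = v := by rw [← mul_assoc, h.pv, h.vpp]
theorem vpvp (h : Bx W a b v p) : v * p * (v * p) = 1 := h.cx.sq1 h.vp1
theorem vp_ne_one (h : Bx W a b v p) : v * p ≠ 1 := fun e => h.hvp (by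
  have := h.vvp; rw [e, mul_one] at this; exact this)
theorem vp_ne_v (h : Bx W a b v p) : v * p ≠ v := fun e => h.hp (by
  have := h.vpv; rw [e, h.vv] at this; exact this.symm)
theorem vp_ne_p (h : Bx W a b v p) : v * p ≠ p := fun e => h.hv (by
  have := h.vpp; rw [e, h.pp] at this; exact this.symm)

theorem comm1 (h : Bx W a b v p) {x y : G} (hx : x ∈ OmS (Cc W) 1) (hy : y ∈ OmS (Cc W) 1) :
    x * y = y * x := h.cx.ab _ (h.cx.om1W hx) _ (h.cx.om1W hy)

theorem eq_of_mul_eq_one (h : Bx W a b v p) {x y : G} (hy : y ∈ OmS (Cc W) 1) (hxy : x * y = 1) :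
    x = y := by
  calc x = x * (y * y) := by rw [h.cx.sq1 hy, mul_one]
    _ = y := by rw [← mul_assoc, hxy, one_mul]

/-- any two distinct nontrivial elements generate -/
theorem k4 (h : Bx W a b v p) {x y z : G} (hx : x ∈ OmS (Cc W) 1) (hy : y ∈ OmS (Cc W) 1)
    (hx1 : x ≠ 1) (hy1 : y ≠ 1) (hxy : x ≠ y) (hz : z ∈ OmS (Cc W) 1) :
    z = 1 ∨ z = x ∨ z = y ∨ z = x * y := by
  rcases h.w0 x hx with rfl | rfl | rfl | rfl
  · exact absurd rfl hx1
  · rcases h.w0 y hy with rfl | rfl | rfl | rfl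
    · exact absurd rfl hy1
    · exact absurd rfl hxy
    · exact h.w0 z hz
    · rw [h.vvp]
      rcases h.w0 z hz with rfl | rfl | rfl | rfl <;> simp
  · rcases h.w0 y hy with rfl | rfl | rfl | rfl
    · exact absurd rfl hy1
    · rw [h.pv]
      rcases h.w0 z hz with rfl | rfl | rfl | rfl <;> simp
    · exact absurd rfl hxy
    · rw [h.pvp]
      rcases h.w0 z hz with rfl | rfl | rfl | rfl <;> simp
  · rcases h.w0 y hy with rfl | rfl | rfl | rfl
    · exact absurd rfl hy1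
    · rw [h.vpv]
      rcases h.w0 z hz with rfl | rfl | rfl | rfl <;> simp
    · rw [h.vpp]
      rcases h.w0 z hz with rfl | rfl | rfl | rfl <;> simp
    · exact absurd rfl hxy

theorem ab_sq (h : Bx W a b v p) : (a * b) * (a * b) = v * p := by
  calc (a * b) * (a * b) = a * (b * a) * b := by group
    _ = a * (a * b) * b := by rw [h.cx.ab b h.hb a h.ha]
    _ = (a * a) * (b * b) := by group
    _ = v * p := by rw [h.hav, h.hbp]

theorem cases (h : Bx W a b v p) {y w : G} (hy : Mem W y) (hw : w ∈ W) :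
    (w ∈ OmS (Cc W) 1 ∧ w * w = 1 ∧ cm w y = 1) ∨ (w * w = v ∧ cm w y = cm a y) ∨
    (w * w = p ∧ cm w y = cm b y) ∨ (w * w = v * p ∧ cm w y = cm a y * cm b y) := by
  rcases h.w0 _ (h.cx.sqW hw) with e | e | e | e
  · left
    have : w ∈ OmS (Cc W) 1 := h.cx.om1.2 ⟨hw, e⟩
    exact ⟨this, e, cm_of_comm (hy _ this)⟩
  · right; left
    exact ⟨e, cm_eq_of_sq h.cx hy hw h.ha (by rw [e, h.hav])⟩
  · right; right; left
    exact ⟨e, cm_eq_of_sq h.cx hy hw h.hb (by rw [e, h.hbp])⟩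
  · right; right; right
    refine ⟨e, ?_⟩
    rw [← cm_mul_left h.cx hy h.ha h.hb]
    exact cm_eq_of_sq h.cx hy hw (W.mul_mem h.ha h.hb) (by rw [e, h.ab_sq])

theorem inv_of (h : Bx W a b v p) {y : G} (hy : Mem W y) (h1 : cm a y ≠ 1) (h2 : cm b y ≠ 1)
    (h3 : cm a y ≠ cm b y) : ∀ w ∈ W, cm w y = 1 → w ∈ OmS (Cc W) 1 := by
  intro w hw e
  rcases h.cases hy hw with c | c | c | c
  · exact c.1
  · exact absurd (c.2 ▸ e) h1
  · exact absurd (c.2 ▸ e) h2
  · exact absurd (h.eq_of_mul_eq_one (cmW h.cx hy h.hb) (c.2 ▸ e)) h3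

theorem inv1_of (h : Bx W a b v p) {y : G} (hy : Mem W y) (h1 : cm a y ≠ v) (h2 : cm b y ≠ p)
    (h3 : cm a y * cm b y ≠ v * p) : ∀ w ∈ W, cj w y = w⁻¹ → w ∈ OmS (Cc W) 1 := by
  intro w hw e
  have e2 : cm w y = w * w := by
    have : cm w y * (w * w) = 1 := by
      have h5 : cm w y = w⁻¹ * w⁻¹ := by rw [cm_eq, e]
      rw [h5]; group
    exact h.eq_of_mul_eq_one (h.cx.sqW hw) this
  rcases h.cases hy hw with c | c | c | c
  · exact c.1
  · exact absurd (by rw [← c.2, e2, c.1]) h1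
  · exact absurd (by rw [← c.2, e2, c.1]) h2
  · exact absurd (by rw [← c.2, e2, c.1]) h3

theorem not_memC (h : Bx W a b v p) {y : G} (hab : cm a y ≠ 1 ∨ cm b y ≠ 1) : y ∉ Cc W := by
  intro hy
  rcases hab with e | e
  · exact e (cm_of_comm (h.cx.comm h.ha hy))
  · exact e (cm_of_comm (h.cx.comm h.hb hy))

theorem memC (h : Bx W a b v p) {y : G} (hy : Mem W y) (h1 : cm a y = 1) (h2 : cm b y = 1) :
    y ∈ Cc W := by
  refine Subgroup.mem_centralizer_iff.2 fun w hw => comm_of_cm ?_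
  rcases h.cases hy hw with c | c | c | c
  · exact c.2.2
  · rw [c.2, h1]
  · rw [c.2, h2]
  · rw [c.2, h1, h2, mul_one]

end Bx

/-- the hypothesis "no normal E8" in the form that we use -/
def NoE8 (W : Subgroup G) : Prop := ∀ s : G, s * s = 1 → Mem W s → (∀ g, cm s g ∈ OmS (Cc W) 1) →
    s ∈ OmS (Cc W) 1

/-- Lemma 1 -/
theorem not_small (h : Bx W a b v p) (hE : NoE8 W) {y : G} (hy : Mem W y)
    (h1 : cm a y ≠ v) (h2 : cm b y ≠ p) (h3 : cm a y * cm b y ≠ v * p)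
    (hyC : y ∉ Cc W) (hg : ∀ g, cm y g ∈ Cc W) : y * y ∉ OmS (Cc W) 1 := by
  intro hs
  have hinv := h.inv1_of hy h1 h2 h3
  -- find w
  have key : ∃ w ∈ W, cj w y * w = y * y := by
    have f : ∀ w, cj w y * w = (w * cm w y) * w := fun w => by rw [cj_eq]
    have f2 : ∀ w ∈ W, cj w y * w = (w * w) * cm w y := fun w hw => by
      rw [f, mul_assoc, h.cx.ab _ (h.cx.om1W (cmW h.cx hy hw)) w hw, mul_assoc]
    have f3 : ∀ w ∈ W, cj w y * w ∈ OmS (Cc W) 1 := fun w hw => by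
      rw [f2 w hw]; exact h.cx.mul1 (h.cx.sqW hw) (cmW h.cx hy hw)
    have fa := f2 a h.ha
    have fb := f2 b h.hb
    have na : cj a y * a ≠ 1 := by
      intro e; rw [fa, h.hav] at e
      exact h1 (h.eq_of_mul_eq_one (cmW h.cx hy h.ha) e).symm
    have nb : cj b y * b ≠ 1 := by
      intro e; rw [fb, h.hbp] at e
      exact h2 (h.eq_of_mul_eq_one (cmW h.cx hy h.hb) e).symm
    have fab : cj (a * b) y * (a * b) = (cj a y * a) * (cj b y * b) := by
      rw [f2 _ (W.mul_mem h.ha h.hb), fa, fb, h.ab_sq, cm_mul_left h.cx hy h.ha h.hb, h.hav, h.hbp]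
      have := h.comm1 h.p1 (cmW h.cx hy h.ha)
      calc v * p * (cm a y * cm b y) = v * (p * cm a y) * cm b y := by group
        _ = v * (cm a y * p) * cm b y := by rw [this]
        _ = _ := by group
    have nab : cj a y * a ≠ cj b y * b := by
      intro e
      rw [← e, h.cx.sq1 (f3 a h.ha)] at fab
      rw [f2 _ (W.mul_mem h.ha h.hb), h.ab_sq, cm_mul_left h.cx hy h.ha h.hb] at fab
      exact h3 (h.eq_of_mul_eq_one (h.cx.mul1 (cmW h.cx hy h.ha) (cmW h.cx hy h.hb)) fab).symm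
    rcases h.k4 (f3 a h.ha) (f3 b h.hb) na nb nab hs with e | e | e | e
    · exact ⟨1, W.one_mem, by rw [e, cj_one, one_mul]⟩
    · exact ⟨a, h.ha, e.symm⟩
    · exact ⟨b, h.hb, e.symm⟩
    · exact ⟨a * b, W.mul_mem h.ha h.hb, by rw [fab, e]⟩
  obtain ⟨w, hw, hwy⟩ := key
  set s := y * w with hsdef
  have hss : s * s = 1 := by
    have : s * s = (y * y) * (cj w y * w) := by rw [hsdef]; unfold cj; group
    rw [this, hwy, h.cx.sq1 hs]
  have hsM : Mem W s := hy.mul (Mem.ofC h.cx (h.cx.WC hw))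
  have hsC : s ∉ Cc W := by
    intro e
    apply hyC
    have : y = s * w⁻¹ := by rw [hsdef]; group
    rw [this]
    exact (Cc W).mul_mem e ((Cc W).inv_mem (h.cx.WC hw))
  have hinvs : ∀ u ∈ W, cj u s = u⁻¹ → u ∈ OmS (Cc W) 1 := by
    intro u hu e
    refine hinv u hu ?_
    rw [hsdef, ← cj_cj, cj_fix (h.cx.ab _ (h.cx.cjW hu y) w hw)] at e
    exact e
  refine hsC (hE s hss hsM ?_).1
  intro g
  have hcC : cm s g ∈ Cc W := by
    have : cm s g = cj (cm y g) w * cm w g := by rw [hsdef]; unfold cm cj; group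
    rw [this]
    refine (Cc W).mul_mem (h.cx.cjC (hg g) w) ?_
    rw [cm_eq]
    exact h.cx.WC (W.mul_mem (W.inv_mem hw) (h.cx.cjW hw g))
  have h6 : cj (cm s g) s * cm s g = 1 := by
    rw [← sq_cm, hss]; unfold cm; group
  have hcW := mem_W_of_small h.cx hsM hcC hinvs (by rw [h6]; exact OmS_one)
  exact hinvs _ hcW (eq_inv_of_mul_eq_one_left h6)

/-- the top power of `y²` -/
theorem theta (h : Bx W a b v p) {y : G} (hy : Mem W y) (h1 : cm a y = 1) (h2 : cm b y ≠ 1) {i : ℕ}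
    (hi : y * y ∈ OmS (Cc W) (i + 2)) (hi' : y * y ∉ OmS (Cc W) (i + 1)) :
    (y * y) ^ (2 ^ (i + 1)) = v := by
  set w := (y * y) ^ (2 ^ i) with hw
  have hwC : w ∈ Cc W := (Cc W).pow_mem hi.1 _
  have hww : w * w = (y * y) ^ (2 ^ (i + 1)) := by
    rw [hw, ← pow_two, ← pow_mul, ← pow_succ]
  have hwW : w ∈ W := by
    refine h.cx.c w hwC ?_
    rw [hw, ← pow_mul]
    have : 2 ^ i * 4 = 2 ^ (i + 2) := by rw [pow_add]; norm_num
    rw [this]; exact hi.2
  have hw1 : w * w ≠ 1 := by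
    intro e; apply hi'
    exact ⟨hi.1, by rw [← hww, e]⟩
  have hcm : cm w y = 1 := by
    refine cm_of_comm ?_
    have : Commute (y * y) y := (Commute.refl y).mul_left (Commute.refl y)
    exact this.pow_left _
  rw [← hww]
  rcases h.cases hy hwW with c | c | c | c
  · exact absurd c.2.1 hw1
  · exact c.1
  · exact absurd (c.2 ▸ hcm) h2
  · rw [h1, one_mul] at c
    exact absurd (c.2 ▸ hcm) h2

theorem reduce (h : Bx W a b v p) {y k : G} (hy : Mem W y) (h1 : cm a y = 1) {i : ℕ}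
    (hi : y * y ∈ OmS (Cc W) (i + 2)) (hi' : (y * y) ^ (2 ^ (i + 1)) = v)
    (hk : k ∈ OmS (Cc W) (i + 3)) (hk' : k ^ (2 ^ (i + 2)) = v) :
    (y * k) * (y * k) ∈ OmS (Cc W) (i + 1) := by
  have hkC := hk.1
  have hz := h.cx.z2
  have hl := lead h.cx hy (i + 1) k hk a h.ha (by rw [h.hav, hk'])
  rw [h1] at hl
  have e : (y * k) * (y * k) = (y * y) * ((k * k) * cj (cm k y) k) := by unfold cm cj; group
  have hk2 : k * k ∈ OmS (Cc W) (i + 2) := (OmS_sq hkC).1 hk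
  have hc : cm k y ∈ OmS (Cc W) (i + 2) := drop h.cx hy hk
  have hc2 : cj (cm k y) k ∈ OmS (Cc W) (i + 2) := h.cx.cjOm hc k
  have hkk : (k * k) ^ (2 ^ (i + 1)) = v := by
    rw [← pow_two, ← pow_mul, ← pow_succ']; exact hk'
  rw [e]
  refine ⟨(Cc W).mul_mem hi.1 ((Cc W).mul_mem hk2.1 hc2.1), ?_⟩
  rw [mul_pow_top hz (i + 1) _ hi _ (Om_mul hz hk2 hc2), mul_pow_top hz (i + 1) _ hk2 _ hc2, hi', hkk,
    ← cj_pow, hl, cj_one, mul_one, h.vv]

theorem card_le_two_mul [Finite G] {H K : Subgroup G} {y : G}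
    (h : ∀ x ∈ H, x ∈ K ∨ y * x ∈ K) : Nat.card H ≤ 2 * Nat.card K := by
  classical
  have hinj : Function.Injective (fun x : H => (if hx : (x : G) ∈ K then
      (Sum.inl ⟨x, hx⟩ : K ⊕ K) else Sum.inr ⟨y * x, (h x x.2).resolve_left hx⟩)) := by
    intro x z hxz
    by_cases hx : (x : G) ∈ K <;> by_cases hz : (z : G) ∈ K
    · simp only [hx, hz, dif_pos] at hxz
      have := Sum.inl_injective hxz
      exact Subtype.ext (congrArg (fun q : K => (q : G)) this)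
    · simp only [hx, hz, dif_pos, dif_neg, not_false_eq_true] at hxz
      exact absurd hxz (by simp)
    · simp only [hx, hz, dif_pos, dif_neg, not_false_eq_true] at hxz
      exact absurd hxz (by simp)
    · simp only [hx, hz, dif_neg, not_false_eq_true] at hxz
      have := Sum.inr_injective hxz
      have h2 := congrArg (fun q : K => (q : G)) this
      exact Subtype.ext (mul_left_cancel h2)
  have := Nat.card_le_card_of_injective _ hinj
  rw [Nat.card_sum] at this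
  omega

theorem RK_C [Finite G] (h : Cx W) (hc : Nat.card (OmS (Cc W) 1) ≤ 4) : RK 2 (Cc W) := by
  intro H hH
  refine (card_le_of_Om (h.z2.sub hH)).trans (Nat.mul_le_mul_right _ ?_)
  refine le_trans ?_ hc
  refine Nat.card_le_card_of_injective (fun x : OmS H 1 => (⟨x, hH x.2.1, x.2.2⟩ : OmS (Cc W) 1)) ?_
  intro x y hxy
  exact Subtype.ext (congrArg (fun q : OmS (Cc W) 1 => (q : G)) hxy)

theorem RN [Finite G] (h : Bx W a b v p) (hcard : Nat.card (OmS (Cc W) 1) ≤ 4) {N : Subgroup G}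
    (hN : ∀ x ∈ N, x ∉ Cc W → Mem W x ∧ cm a x = 1 ∧ cm b x ≠ 1 ∧ x * x ∉ OmS (Cc W) 1)
    (h2 : ∀ x ∈ N, ∀ y ∈ N, x ∉ Cc W → y ∉ Cc W → x * y ∈ Cc W) : RK 2 N := by
  intro H hH
  have hRC := RK_C h.cx hcard
  by_cases hHC : H ≤ Cc W
  · exact hRC H hHC
  rw [SetLike.not_le_iff_exists] at hHC
  obtain ⟨y0, hy0, hy0C⟩ := hHC
  set K := H ⊓ Cc W with hK
  have hKH : K ≤ H := inf_le_left
  have hZK : Z2 K := h.cx.z2.sub inf_le_right
  have hcH : Nat.card H ≤ 2 * Nat.card K := by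
    refine card_le_two_mul (y := y0) ?_
    intro x hx
    by_cases hxC : x ∈ Cc W
    · exact Or.inl ⟨hx, hxC⟩
    · exact Or.inr ⟨H.mul_mem hy0 hx, h2 _ (hH hy0) _ (hH hx) hy0C hxC⟩
  have hK1 : Nat.card (OmS K 1) ≤ 4 := by
    refine le_trans ?_ hcard
    refine Nat.card_le_card_of_injective
      (fun x : OmS K 1 => (⟨x, x.2.1.2, x.2.2⟩ : OmS (Cc W) 1)) ?_
    intro x y hxy
    exact Subtype.ext (congrArg (fun q : OmS (Cc W) 1 => (q : G)) hxy)
  have hmono : Nat.card (Sq K) ≤ Nat.card (Sq H) :=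
    Nat.le_of_dvd Nat.card_pos (Subgroup.card_dvd_of_le (Sq_mono hKH))
  by_cases hsmall : Nat.card K ≤ 2 * Nat.card (Sq K)
  · calc Nat.card H ≤ 2 * Nat.card K := hcH
      _ ≤ 2 * (2 * Nat.card (Sq K)) := Nat.mul_le_mul_left _ hsmall
      _ ≤ 2 ^ 2 * Nat.card (Sq H) := by
        rw [← mul_assoc]; exact Nat.mul_le_mul_left _ hmono
  -- now card K = 4 card (Sq K)
  have hKp : IsPGroup 2 K := fun x => by
    obtain ⟨n, hn⟩ := h.cx.p (x : G)
    exact ⟨n, Subtype.ext (by simpa using hn)⟩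
  have hge : 4 * Nat.card (Sq K) ≤ Nat.card K := by
    obtain ⟨c, hc⟩ := Subgroup.card_dvd_of_le (Sq_le K)
    haveI : Fact (Nat.Prime 2) := ⟨Nat.prime_two⟩
    obtain ⟨n, hn⟩ := (IsPGroup.iff_card (p := 2)).1 hKp
    have hcd : c ∣ 2 ^ n := ⟨Nat.card (Sq K), by rw [← hn, hc, mul_comm]⟩
    obtain ⟨m, -, hm⟩ := (Nat.dvd_prime_pow Nat.prime_two).1 hcd
    have hc2 : 2 < c := by
      by_contra hcon
      push Not at hcon
      apply hsmall
      rw [hc, mul_comm]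
      exact Nat.mul_le_mul_right _ hcon
    have hm2 : 2 ≤ m := by
      by_contra hcon
      have : m ≤ 1 := by omega
      interval_cases m <;> simp at hm <;> omega
    have h4c : 4 ≤ c := by
      rw [hm]
      calc 4 = 2 ^ 2 := by norm_num
        _ ≤ 2 ^ m := Nat.pow_le_pow_right (by norm_num) hm2
    rw [hc, mul_comm]
    exact Nat.mul_le_mul_left _ h4c
  have hsq : ∀ s ∈ Sq K, ∃ k ∈ K, s = k * k := fun s hs =>
    sq_of_card hZK ((Nat.mul_le_mul_right _ hK1).trans hge) hs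
  -- minimal level
  have hex : ∃ i : ℕ, ∃ y ∈ H, y ∉ Cc W ∧ y * y ∈ OmS (Cc W) i := by
    obtain ⟨hM, -⟩ := hN y0 (hH hy0) hy0C
    have hC := sqC h.cx hM
    obtain ⟨n, hn⟩ := h.cx.p (y0 * y0)
    exact ⟨n, y0, hy0, hy0C, hC, hn⟩
  classical
  obtain ⟨y, hyH, hyC, hyi⟩ := Nat.find_spec hex
  obtain ⟨hyM, ha1, hb1, hns⟩ := hN y (hH hyH) hyC
  have hi2 : 2 ≤ Nat.find hex := by
    by_contra hcon
    exact hns (OmS_mono (by omega) hyi)
  obtain ⟨i, hi⟩ := Nat.exists_eq_add_of_le hi2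
  rw [hi, add_comm] at hyi
  have hmin : ∀ x ∈ H, x ∉ Cc W → x * x ∉ OmS (Cc W) (i + 1) := by
    intro x hx hxC hcon
    exact Nat.find_min hex (m := i + 1) (by omega) ⟨x, hx, hxC, hcon⟩
  have hth := theta h hyM ha1 hb1 hyi (hmin y hyH hyC)
  have hnotin : y * y ∉ Sq K := by
    intro hcon
    obtain ⟨k, hk, hkk⟩ := hsq _ hcon
    have hkC : k ∈ Cc W := hk.2
    have hk3 : k ∈ OmS (Cc W) (i + 3) := by
      rw [OmS_sq hkC, ← hkk]; exact hyi
    have hk3' : k ^ (2 ^ (i + 2)) = v := by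
      rw [pow_succ', pow_mul, pow_two, ← hkk]; exact hth
    have := reduce h hyM ha1 hyi hth hk3 hk3'
    refine hmin (y * k) (H.mul_mem hyH hk.1) ?_ this
    intro hcc
    apply hyC
    have e : y = (y * k) * k⁻¹ := by group
    rw [e]; exact (Cc W).mul_mem hcc ((Cc W).inv_mem hkC)
  have hlt : Sq K < Sq H := by
    refine lt_of_le_of_ne (Sq_mono hKH) ?_
    intro e
    apply hnotin; rw [e]; exact sq_mem hyH
  have h2le : 2 * Nat.card (Sq K) ≤ Nat.card (Sq H) := by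
    obtain ⟨c, hc⟩ := Subgroup.card_dvd_of_le hlt.le
    have hpos : 0 < Nat.card (Sq H) := Nat.card_pos
    rcases c with _ | _ | c
    · omega
    · exact absurd (Subgroup.eq_of_le_of_card_ge hlt.le (by rw [hc]; omega)) hlt.ne
    · rw [hc, mul_comm]; exact Nat.mul_le_mul_left _ (by omega)
  have hKle : Nat.card K ≤ 4 * Nat.card (Sq K) :=
    (card_le_of_Om hZK).trans (Nat.mul_le_mul_right _ hK1)
  calc Nat.card H ≤ 2 * Nat.card K := hcH
    _ ≤ 2 * (4 * Nat.card (Sq K)) := Nat.mul_le_mul_left _ hKle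
    _ = 4 * (2 * Nat.card (Sq K)) := by ring
    _ ≤ 2 ^ 2 * Nat.card (Sq H) := Nat.mul_le_mul_left _ h2le

end H87.MW5
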