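import Mathlib
import Cfsg.Prelude
import Cfsg.Agent.Lib.H87.MW5

set_option autoImplicit false
set_option maxHeartbeats 400000

/-! Two lemmas on small elements. -/

namespace H87.MW6

open Subgroup H87.MW1 H87.MW2 H87.MW3 H87.MW4 H87.MW5

variable {G : Type*} [Group G] {W : Subgroup G} {a b v p : G}

theorem two_small (h : Bx W a b v p) {t t' : G} (ht : Mem W t) (ht' : Mem W t')
    (hs : t * t ∈ OmS (Cc W) 1) (hs' : t' * t' ∈ OmS (Cc W) 1) (hat : cm a t = 1)
    (ha1 : cm a (t * t') = 1) (hb1 : cm b (t * t') ≠ 1) : (t * t') * (t * t') ∈ OmS (Cc W) 1 := by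
  set y := t * t' with hy
  have hyM : Mem W y := ht.mul ht'
  by_contra hcon
  obtain ⟨k, hk1, hk2⟩ := powW h.cx (sqC h.cx hyM) hcon
  set w := (y * y) ^ (2 ^ k) with hw
  have hcm : cm w y = 1 := by
    refine cm_of_comm ?_
    have : Commute (y * y) y := (Commute.refl y).mul_left (Commute.refl y)
    exact this.pow_left _
  -- `t` inverts `y²`
  have hinv : cj (y * y) t = (y * y)⁻¹ := by
    have c1 : (t' * t') * t = t * (t' * t') := ht _ hs'
    have c2 : (t' * t') * t' = t' * (t' * t') := ht' _ hs'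
    have c3 : (t * t) * t' = t' * (t * t) := ht' _ hs
    have c4 : (t * t) * t = t * (t * t) := ht _ hs
    have e0 : cj (y * y) t * (y * y) = 1 := by
      have q1 := h.cx.sq1 hs
      have q2 := h.cx.sq1 hs'
      calc cj (y * y) t * (y * y) = t' * t * t' * (t * t) * t' * t * t' := by
            rw [hy]; unfold cj; group
        _ = t' * t * t' * (t' * (t * t)) * t * t' := by rw [← c3]; group
        _ = t' * t * (t' * t') * ((t * t) * t) * t' := by group
        _ = t' * (t * (t' * t')) * (t * (t * t)) * t' := by rw [c4]; group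
        _ = t' * ((t' * t') * t) * (t * (t * t)) * t' := by rw [c1]
        _ = t' * (t' * t') * ((t * t) * (t * t)) * t' := by group
        _ = (t' * t') * (t' * t') := by rw [q1]; group
        _ = 1 := q2
    exact eq_inv_of_mul_eq_one_left e0
  have hwinv : cj w t = w⁻¹ := by rw [hw, cj_pow, hinv, inv_pow]
  have hwv : w * w = v := by
    rcases h.cases hyM hk1 with c | c | c | c
    · exact absurd c.1 hk2
    · exact c.1
    · exact absurd (c.2 ▸ hcm) hb1
    · rw [ha1, one_mul] at c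
      exact absurd (c.2 ▸ hcm) hb1
  have h1 : cm w t = 1 := by
    rw [cm_eq_of_sq h.cx ht hk1 h.ha (by rw [hwv, h.hav]), hat]
  have h2 : cj w t = w := by rw [cj_eq, h1, mul_one]
  have h3 : w * w = 1 := by
    rw [hwinv] at h2
    nth_rw 1 [← h2]
    group
  exact h.hv (by rw [← hwv, h3])

/-- the set of levels of elements with top power `v` -/
def Lv (W : Subgroup G) (v : G) (j : ℕ) : Prop := ∃ k ∈ OmS (Cc W) (j + 2), k ^ (2 ^ (j + 1)) = v

theorem Lv_down {j : ℕ} (hj : Lv W v (j + 1)) : Lv W v j := by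
  obtain ⟨k, hk, hk'⟩ := hj
  refine ⟨k * k, (OmS_sq hk.1).1 hk, ?_⟩
  rw [← pow_two, ← pow_mul, ← pow_succ']
  exact hk'

theorem Lv_le {i j : ℕ} (hij : i ≤ j) (hj : Lv W v j) : Lv W v i := by
  induction j with
  | zero => have : i = 0 := by omega
            rw [this]; exact hj
  | succ j ih =>
    rcases Nat.lt_or_ge i (j + 1) with h | h
    · exact ih (by omega) (Lv_down hj)
    · have : i = j + 1 := by omega
      rw [this]; exact hj

theorem stepI [Finite G] (h : Bx W a b v p) {y1 y2 : G} (h1 : Mem W y1) (h2 : Mem W y2)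
    (h1a : cm a y1 = 1) (h1b : cm b y1 = v) (h2a : cm a y2 = 1) (h2b : cm b y2 ≠ 1)
    (h2v : cm b y2 ≠ v)
    (hns : ∀ y, Mem W y → cm a y = 1 → cm b y ≠ 1 → y * y ∉ OmS (Cc W) 1) : False := by
  have hz := h.cx.z2
  -- the maximal level
  have hex : ∃ j, Lv W v j ∧ ¬ Lv W v (j + 1) := by
    by_contra hcon
    push Not at hcon
    have hall : ∀ j, Lv W v j := by
      intro j
      induction j with
      | zero =>
        refine ⟨a, ?_, ?_⟩
        · rw [zero_add]; exact h.cx.om2.2 h.ha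
        · rw [zero_add, pow_one, pow_two]; exact h.hav
      | succ j ih => exact hcon j ih
    obtain ⟨n, hn⟩ : ∃ n : ℕ, ∀ x : G, x ^ (2 ^ n) = 1 := by
      have : ∀ x : G, ∃ n, x ^ (2 ^ n) = 1 := h.cx.p
      choose f hf using this
      haveI := Fintype.ofFinite G
      refine ⟨∑ x, f x, fun x => ?_⟩
      have hle : f x ≤ ∑ x, f x := Finset.single_le_sum (fun _ _ => Nat.zero_le _) (Finset.mem_univ x)
      obtain ⟨c, hc⟩ := Nat.exists_eq_add_of_le hle
      rw [hc, pow_add, pow_mul, hf, one_pow]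
    obtain ⟨k, -, hk⟩ := hall n
    apply h.hv
    rw [← hk, pow_succ, pow_mul, hn, one_pow]
  obtain ⟨j, hj, hj'⟩ := hex
  -- no element of the family has a square in `Om (j+1)`
  have hA : ∀ i, i ≤ j → ∀ y, Mem W y → cm a y = 1 → cm b y ≠ 1 → y * y ∉ OmS (Cc W) (i + 1) := by
    intro i
    induction i with
    | zero => intro _ y hy ha hb; rw [zero_add]; exact hns y hy ha hb
    | succ i ih =>
      intro hij y hy ha hb hcon
      have hth := theta h hy ha hb hcon (ih (by omega) y hy ha hb)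
      obtain ⟨k, hk, hk'⟩ := Lv_le hij hj
      have hred := reduce h hy ha hcon hth hk hk'
      have hkM : Mem W k := Mem.ofC h.cx hk.1
      refine ih (by omega) (y * k) (hy.mul hkM) ?_ ?_ hred
      · rw [cm_mul_right h.cx hy hkM h.ha, ha, cm_of_comm (h.cx.comm h.ha hk.1), mul_one]
      · rw [cm_mul_right h.cx hy hkM h.hb, cm_of_comm (h.cx.comm h.hb hk.1), mul_one]; exact hb
  have hB : ∀ y, Mem W y → cm a y = 1 → cm b y ≠ 1 →
      y * y ∈ OmS (Cc W) (j + 2) ∧ (y * y) ^ (2 ^ (j + 1)) = v := by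
    intro y hy ha hb
    have hmem : y * y ∈ OmS (Cc W) (j + 2) := by
      by_contra hcon
      obtain ⟨k, hk1, hk2⟩ := exists_pow hz.p (sqC h.cx hy) hcon
      -- exact level of y²
      have hexn : ∃ n, y * y ∈ OmS (Cc W) n := by
        obtain ⟨n, hn⟩ := h.cx.p (y * y)
        exact ⟨n, sqC h.cx hy, hn⟩
      classical
      have hf := Nat.find_spec hexn
      have hge : j + 3 ≤ Nat.find hexn := by
        by_contra hlt
        exact hcon (OmS_mono (by omega) hf)
      obtain ⟨i, hi⟩ := Nat.exists_eq_add_of_le hge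
      have hi' : Nat.find hexn = (j + 1 + i) + 2 := by omega
      rw [hi'] at hf
      have hn' : y * y ∉ OmS (Cc W) ((j + 1 + i) + 1) := Nat.find_min hexn (by omega)
      have hth := theta h hy ha hb hf hn'
      exact hj' (Lv_le (by omega) ⟨y * y, hf, hth⟩)
    exact ⟨hmem, theta h hy ha hb hmem (hA j le_rfl y hy ha hb)⟩
  obtain ⟨m1, t1⟩ := hB y1 h1 h1a (by rw [h1b]; exact h.hv)
  obtain ⟨m2, t2⟩ := hB y2 h2 h2a h2b
  have hm : Mem W (y2 * y1) := h2.mul h1
  have ha12 : cm a (y2 * y1) = 1 := by rw [cm_mul_right h.cx h2 h1 h.ha, h1a, h2a, mul_one]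
  have hb12 : cm b (y2 * y1) ≠ 1 := by
    rw [cm_mul_right h.cx h2 h1 h.hb, h1b]
    intro e
    exact h2v (h.eq_of_mul_eq_one h.v1 e)
  obtain ⟨m3, t3⟩ := hB _ hm ha12 hb12
  -- the commutator
  set c := cm y1 y2 with hc
  have hcC : c ∈ Cc W := cmC h.cx h1 h2
  have hc1 : c ∈ OmS (Cc W) (j + 1) := by
    by_contra hcon
    obtain ⟨k, hk1, hk2⟩ := exists_pow hz.p hcC hcon
    set c' := c ^ (2 ^ k) with hc'
    have hsq : cj c y1 * c = cm (y1 * y1) y2 := (sq_cm y1 y2).symm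
    have hm0 : cm (y1 * y1) y2 ∈ OmS (Cc W) (j + 1) := drop h.cx h2 m1
    have hm1 : cm (y1 * y1) y2 ∈ OmS (Cc W) j := by
      refine ⟨hm0.1, ?_⟩
      rw [lead h.cx h2 j (y1 * y1) m1 a h.ha (by rw [h.hav, t1]), h2a]
    set m := cm (y1 * y1) y2 with hmdef
    have e1 : cj c y1 = c⁻¹ * cj m c⁻¹ := by
      have : m = cj c y1 * c := hsq.symm
      rw [this]; unfold cj; group
    obtain ⟨m', hm', he⟩ := pow_cong (H := OmS (Cc W) j) (fun x hx y hy => Om_mul hz hx hy) OmS_one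
      (m := cj m c⁻¹) (b := c⁻¹) (fun z hz' => h.cx.cjOm hz' _) (h.cx.cjOm hm1 _) (2 ^ k)
    rw [← e1, ← cj_pow, inv_pow, ← hc'] at he
    have e2 : cm c' y1 = (c'⁻¹ * c'⁻¹) * m' := by rw [cm_eq, he]; group
    have hk3 : c'⁻¹ * c'⁻¹ ∈ OmS (Cc W) (j + 1) := by
      have := (OmS_sq ((Cc W).inv_mem hk1.1)).1 (OmS_inv hk1)
      exact this
    have e3 : (cm c' y1) ^ (2 ^ j) = (c' ^ (2 ^ (j + 1)))⁻¹ := by
      rw [e2, mul_pow_top hz j _ hk3 _ (OmS_mono (Nat.le_succ j) hm'), hm'.2, mul_one, ← pow_two,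
        ← pow_mul, ← pow_succ', inv_pow]
    set z := c' ^ (2 ^ (j + 1)) with hzdef
    have hz1 : z ∈ OmS (Cc W) 1 := by
      refine ⟨(Cc W).pow_mem hk1.1 _, ?_⟩
      rw [hzdef, ← pow_mul]
      have : 2 ^ (j + 1) * 2 ^ 1 = 2 ^ (j + 1 + 1) := by rw [← pow_add]
      rw [this]; exact hk1.2
    have hzn : z ≠ 1 := by
      intro e
      exact hk2 ⟨hk1.1, e⟩
    have hzz : z⁻¹ = z := by
      have := h.cx.sq1 hz1
      exact inv_eq_of_mul_eq_one_left this
    rw [hzz] at e3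
    rcases h.w0 z hz1 with e | e | e | e
    · exact hzn e
    · rw [lead h.cx h1 j c' hk1 a h.ha (by rw [h.hav, ← hzdef, e]), h1a] at e3
      exact hzn e3.symm
    · rw [lead h.cx h1 j c' hk1 b h.hb (by rw [h.hbp, ← hzdef, e]), h1b, e] at e3
      exact h.hvp e3
    · rw [lead h.cx h1 j c' hk1 (a * b) (W.mul_mem h.ha h.hb) (by rw [h.ab_sq, ← hzdef, e]),
        cm_mul_left h.cx h1 h.ha h.hb, h1a, h1b, one_mul, e] at e3
      exact h.vp_ne_v e3.symm
  have e4 : (y2 * y1) * (y2 * y1) = (y2 * y2) * (y1 * y1) * cj c y1 := mul_sq y2 y1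
  have hc2 : cj c y1 ∈ OmS (Cc W) (j + 1) := h.cx.cjOm hc1 y1
  rw [e4, mul_pow_top hz (j + 1) _ (Om_mul hz m2 m1) _ (OmS_mono (Nat.le_succ _) hc2),
    mul_pow_top hz (j + 1) _ m2 _ m1, t1, t2, hc2.2, mul_one, h.vv] at t3
  exact h.hv t3.symm

end H87.MW6
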