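import Mathlib
import Cfsg.Prelude
import Cfsg.Agent.Lib.H87.MW6
import Cfsg.Agent.Lib.H37.PBasic

set_option autoImplicit false
set_option maxHeartbeats 400000

/-! Assembly of the homocyclic case. -/

namespace H87.MW7

open Subgroup H87.MW1 H87.MW2 H87.MW3 H87.MW4 H87.MW5 H87.MW6

variable {G : Type*} [Group G] {W : Subgroup G} {a b v p : G}

/-- fibres -/
theorem card_le_fiber {α : Type*} [Finite G] {H K : Subgroup G} (f : G → α) (S : Finset α)
    (hf : ∀ x ∈ H, f x ∈ S) (hfib : ∀ x ∈ H, ∀ y ∈ H, f x = f y → x⁻¹ * y ∈ K) :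
    Nat.card H ≤ S.card * Nat.card K := by
  classical
  let g : H → S × K := fun x =>
    have hex : ∃ z, z ∈ H ∧ f z = f x := ⟨x, x.2, rfl⟩
    (⟨f x, hf x x.2⟩, ⟨(hex.choose)⁻¹ * x, hfib _ hex.choose_spec.1 _ x.2 hex.choose_spec.2⟩)
  have hinj : Function.Injective g := by
    intro x y hxy
    have h1 : f x = f y := congrArg (fun q : S × K => (q.1 : α)) hxy
    have h2 := congrArg (fun q : S × K => (q.2 : G)) hxy
    simp only [g] at h2
    have key : ∀ (s t : α) (hs : ∃ z, z ∈ H ∧ f z = s) (ht : ∃ z, z ∈ H ∧ f z = t), s = t →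
        hs.choose = ht.choose := by
      intro s t hs ht hst
      subst hst
      rfl
    have h3 := key _ _ (⟨x, x.2, rfl⟩ : ∃ z, z ∈ H ∧ f z = f x)
      (⟨y, y.2, rfl⟩ : ∃ z, z ∈ H ∧ f z = f y) h1
    rw [h3] at h2
    exact Subtype.ext (mul_left_cancel h2)
  have := Nat.card_le_card_of_injective g hinj
  have hS : Nat.card S = S.card := by simp
  rwa [Nat.card_prod, hS] at this

/-- `Ω₁` as a subgroup -/
def W0s (h : Cx W) : Subgroup G where
  carrier := OmS (Cc W) 1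
  mul_mem' := fun hx hy => h.mul1 hx hy
  one_mem' := OmS_one
  inv_mem' := fun hx => OmS_inv hx

theorem mem_W0s (h : Cx W) {x : G} : x ∈ W0s h ↔ x ∈ OmS (Cc W) 1 := Iff.rfl

theorem W0s_normal (h : Cx W) : (W0s h).Normal := ⟨fun x hx g => by
  have := h.cjOm hx g⁻¹
  unfold cj at this
  rw [inv_inv] at this
  exact this⟩

/-- the centraliser of `Ω₁` -/
def Mm (W : Subgroup G) : Subgroup G where
  carrier := {y | Mem W y}
  mul_mem' := fun hx hy => Mem.mul hx hy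
  one_mem' := fun z _ => by simp
  inv_mem' := fun hx => Mem.inv hx

theorem mem_Mm {x : G} : x ∈ Mm W ↔ Mem W x := Iff.rfl

def Rz (W : Subgroup G) (a b s t : G) : Prop := ∃ y, Mem W y ∧ cm a y = s ∧ cm b y = t

theorem Rz.mul (h : Bx W a b v p) {s t s' t' : G} (h1 : Rz W a b s t) (h2 : Rz W a b s' t') :
    Rz W a b (s * s') (t * t') := by
  obtain ⟨y, hy, rfl, rfl⟩ := h1
  obtain ⟨z, hz, rfl, rfl⟩ := h2
  exact ⟨y * z, hy.mul hz, cm_mul_right h.cx hy hz h.ha, cm_mul_right h.cx hy hz h.hb⟩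

def chi (h : Bx W a b v p) : Mm W →* (W0s h.cx) × (W0s h.cx) where
  toFun y := (⟨cm a y, cmW h.cx y.2 h.ha⟩, ⟨cm b y, cmW h.cx y.2 h.hb⟩)
  map_one' := by
    ext
    · simp [cm]
    · simp [cm]
  map_mul' y z := by
    ext
    · exact cm_mul_right h.cx y.2 z.2 h.ha
    · exact cm_mul_right h.cx y.2 z.2 h.hb

theorem mem_range (h : Bx W a b v p) {s t : W0s h.cx} :
    (s, t) ∈ (chi h).range ↔ Rz W a b s t := by
  constructor
  · rintro ⟨y, hy⟩
    refine ⟨y, y.2, ?_, ?_⟩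
    · exact congrArg (fun q : (W0s h.cx) × (W0s h.cx) => (q.1 : G)) hy
    · exact congrArg (fun q : (W0s h.cx) × (W0s h.cx) => (q.2 : G)) hy
  · rintro ⟨y, hy, h1, h2⟩
    refine ⟨⟨y, hy⟩, ?_⟩
    refine Prod.ext (Subtype.ext h1) (Subtype.ext h2)

theorem card_Mm [Finite G] (h : Bx W a b v p) :
    Nat.card (Mm W) = Nat.card (chi h).range * Nat.card (Cc W) := by
  have h1 : Nat.card (chi h).ker = Nat.card (Cc W) := by
    refine Nat.card_congr
      { toFun := fun y => ⟨(y : Mm W), ?_⟩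
        invFun := fun y => ⟨⟨y, Mem.ofC h.cx y.2⟩, ?_⟩
        left_inv := fun y => rfl
        right_inv := fun y => rfl }
    · have h2 : chi h y = 1 := y.2
      refine h.memC (y : Mm W).2 ?_ ?_
      · exact congrArg (fun q : (W0s h.cx) × (W0s h.cx) => (q.1 : G)) h2
      · exact congrArg (fun q : (W0s h.cx) × (W0s h.cx) => (q.2 : G)) h2
    · rw [MonoidHom.mem_ker]
      refine Prod.ext (Subtype.ext ?_) (Subtype.ext ?_)
      · exact cm_of_comm (h.cx.comm h.ha y.2)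
      · exact cm_of_comm (h.cx.comm h.hb y.2)
  have h3 := Subgroup.card_mul_index (chi h).ker
  rw [Subgroup.index_ker, h1] at h3
  rw [← h3, mul_comm]

theorem card_range_dvd [Finite G] (h : Bx W a b v p) (h4 : Nat.card (OmS (Cc W) 1) = 4) :
    Nat.card (chi h).range * (chi h).range.index = 16 := by
  rw [Subgroup.card_mul_index, Nat.card_prod]
  have : Nat.card (W0s h.cx) = 4 := h4
  rw [this]

theorem I2 [Finite G] (h : Bx W a b v p) (hi : (chi h).range.index ≤ 2) {s t s' t' : G}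
    (hs : s ∈ OmS (Cc W) 1) (ht : t ∈ OmS (Cc W) 1) (hs' : s' ∈ OmS (Cc W) 1)
    (ht' : t' ∈ OmS (Cc W) 1) (n1 : ¬ Rz W a b s t) (n2 : ¬ Rz W a b s' t') :
    Rz W a b (s * s') (t * t') := by
  have hne : (chi h).range.index ≠ 1 := by
    intro e
    rw [Subgroup.index_eq_one] at e
    apply n1
    have : ((⟨s, hs⟩ : W0s h.cx), (⟨t, ht⟩ : W0s h.cx)) ∈ (chi h).range := by rw [e]; trivial
    exact (mem_range h).1 this
  have hpos : (chi h).range.index ≠ 0 := Subgroup.index_ne_zero_of_finite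
  have h2 : (chi h).range.index = 2 := by omega
  have h3 := Subgroup.mul_mem_iff_of_index_two h2
    (a := ((⟨s, hs⟩ : W0s h.cx), (⟨t, ht⟩ : W0s h.cx)))
    (b := ((⟨s', hs'⟩ : W0s h.cx), (⟨t', ht'⟩ : W0s h.cx)))
  have m1 : ((⟨s, hs⟩ : W0s h.cx), (⟨t, ht⟩ : W0s h.cx)) ∉ (chi h).range := fun e =>
    n1 ((mem_range h).1 e)
  have m2 : ((⟨s', hs'⟩ : W0s h.cx), (⟨t', ht'⟩ : W0s h.cx)) ∉ (chi h).range := fun e =>
    n2 ((mem_range h).1 e)
  have h4 := h3.2 (by simp only [m1, m2])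
  exact (mem_range h).1 h4

theorem cm_cj (w x g : G) : cm w (cj x g) = cj (cm (cj w g⁻¹) x) g := by unfold cm cj; group

/-- The nilpotent normal subgroup -/
def Nn (h : Bx W a b v p) : Subgroup G where
  carrier := {x | Mem W x ∧ cm a x = 1 ∧ (cm b x = 1 ∨ cm b x = v)}
  one_mem' := ⟨fun z _ => by simp, by simp [cm], Or.inl (by simp [cm])⟩
  mul_mem' := by
    rintro x y ⟨h1, h2, h3⟩ ⟨g1, g2, g3⟩
    refine ⟨h1.mul g1, ?_, ?_⟩
    · rw [cm_mul_right h.cx h1 g1 h.ha, h2, g2, mul_one]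
    · rw [cm_mul_right h.cx h1 g1 h.hb]
      rcases h3 with h3 | h3 <;> rcases g3 with g3 | g3 <;> rw [h3, g3] <;> simp [h.vv]
  inv_mem' := by
    rintro x ⟨h1, h2, h3⟩
    exact ⟨h1.inv, by rw [cm_inv_right h.cx h1 h.ha, h2], by rw [cm_inv_right h.cx h1 h.hb]; exact h3⟩

theorem mem_Nn (h : Bx W a b v p) {x : G} :
    x ∈ Nn h ↔ Mem W x ∧ cm a x = 1 ∧ (cm b x = 1 ∨ cm b x = v) := Iff.rfl

theorem p_cj (h : Bx W a b v p) (hvc : ∀ g, cj v g = v) (g : G) : cj p g = p ∨ cj p g = v * p := by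
  rcases h.w0 _ (h.cx.cjOm h.p1 g) with e | e | e | e
  · exfalso
    apply h.hp
    have : cj (cj p g) g⁻¹ = 1 := by rw [e, cj_one]
    rw [cj_cj, mul_inv_cancel] at this
    simpa [cj] using this
  · exfalso
    apply h.hvp
    have : cj (cj p g) g⁻¹ = v := by rw [e, hvc]
    rw [cj_cj, mul_inv_cancel] at this
    have h2 : p = v := by simpa [cj] using this
    exact h2.symm
  · exact Or.inl e
  · exact Or.inr e

/-- `cm a` of a conjugate -/
theorem cm_a_cj (h : Bx W a b v p) (hvc : ∀ g, cj v g = v) {x : G} (hx : Mem W x) (g : G) :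
    cm a (cj x g) = cj (cm a x) g := by
  rw [cm_cj]
  congr 1
  refine cm_eq_of_sq h.cx hx (h.cx.cjW h.ha _) h.ha ?_
  rw [← cj_mul, h.hav, hvc]

theorem cm_b_cj (h : Bx W a b v p) (hvc : ∀ g, cj v g = v) {x : G} (hx : Mem W x) {g : G}
    (hg : cj p g = v * p) : cm b (cj x g) = cj (cm a x * cm b x) g := by
  rw [cm_cj]
  congr 1
  rw [← cm_mul_left h.cx hx h.ha h.hb]
  refine cm_eq_of_sq h.cx hx (h.cx.cjW h.hb _) (W.mul_mem h.ha h.hb) ?_
  rw [← cj_mul, h.hbp, h.ab_sq]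
  have e1 : cj (v * p) g = p := by rw [cj_mul, hvc, hg, h.vvp]
  rw [← e1, cj_cj, mul_inv_cancel, e1]
  simp [cj]

theorem cm_b_cj' (h : Bx W a b v p) {x : G} (hx : Mem W x) {g : G}
    (hg : cj p g = p) : cm b (cj x g) = cj (cm b x) g := by
  rw [cm_cj]
  congr 1
  refine cm_eq_of_sq h.cx hx (h.cx.cjW h.hb _) h.hb ?_
  rw [← cj_mul, h.hbp]
  nth_rw 1 [← hg]
  rw [cj_cj, mul_inv_cancel]
  simp [cj]

theorem Nn_normal (h : Bx W a b v p) (hvc : ∀ g, cj v g = v) : (Nn h).Normal := by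
  constructor
  rintro x ⟨h1, h2, h3⟩ g
  have e0 : g * x * g⁻¹ = cj x g⁻¹ := by unfold cj; group
  rw [e0]
  refine ⟨h1.cj h.cx _, ?_, ?_⟩
  · rw [cm_a_cj h hvc h1, h2, cj_one]
  · rcases p_cj h hvc g⁻¹ with e | e
    · rw [cm_b_cj' h h1 e]
      rcases h3 with h3 | h3
      · left; rw [h3, cj_one]
      · right; rw [h3, hvc]
    · rw [cm_b_cj h hvc h1 e, h2, one_mul]
      rcases h3 with h3 | h3
      · left; rw [h3, cj_one]
      · right; rw [h3, hvc]

theorem Nn_not_small (h : Bx W a b v p) (hE : NoE8 W) (hvc : ∀ g, cj v g = v) {y : G}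
    (hy : Mem W y) (h1 : cm a y = 1) (h2 : cm b y = v) : y * y ∉ OmS (Cc W) 1 := by
  refine not_small h hE hy (by rw [h1]; exact fun e => h.hv e.symm) (by rw [h2]; exact h.hvp)
    (by rw [h1, h2, one_mul]; exact fun e => h.vp_ne_v e.symm)
    (h.not_memC (Or.inr (by rw [h2]; exact h.hv))) ?_
  intro g
  have hc : Mem W (cm y g) := by rw [cm_eq]; exact hy.inv.mul (hy.cj h.cx g)
  have ha : cm a (cj y g) = 1 := by rw [cm_a_cj h hvc hy, h1, cj_one]
  have hb : cm b (cj y g) = v := by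
    rcases p_cj h hvc g with e | e
    · rw [cm_b_cj' h hy e, h2, hvc]
    · rw [cm_b_cj h hvc hy e, h1, one_mul, h2, hvc]
  refine h.memC hc ?_ ?_
  · rw [cm_eq y g, cm_mul_right h.cx hy.inv (hy.cj h.cx g) h.ha, cm_inv_right h.cx hy h.ha, h1, ha,
      mul_one]
  · rw [cm_eq y g, cm_mul_right h.cx hy.inv (hy.cj h.cx g) h.hb, cm_inv_right h.cx hy h.hb, h2, hb, h.vv]

theorem Nn_RK [Finite G] (h : Bx W a b v p) (hcard : Nat.card (OmS (Cc W) 1) ≤ 4) (hE : NoE8 W)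
    (hvc : ∀ g, cj v g = v) : RK 2 (Nn h) := by
  refine RN h hcard ?_ ?_
  · rintro x ⟨h1, h2, h3⟩ hxC
    have h4 : cm b x = v := by
      rcases h3 with h3 | h3
      · exact absurd (h.memC h1 h2 h3) hxC
      · exact h3
    exact ⟨h1, h2, by rw [h4]; exact h.hv, Nn_not_small h hE hvc h1 h2 h4⟩
  · rintro x ⟨h1, h2, h3⟩ y ⟨g1, g2, g3⟩ hxC hyC
    have h4 : cm b x = v := by
      rcases h3 with h3 | h3
      · exact absurd (h.memC h1 h2 h3) hxC
      · exact h3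
    have g4 : cm b y = v := by
      rcases g3 with g3 | g3
      · exact absurd (h.memC g1 g2 g3) hyC
      · exact g3
    refine h.memC (h1.mul g1) ?_ ?_
    · rw [cm_mul_right h.cx h1 g1 h.ha, h2, g2, mul_one]
    · rw [cm_mul_right h.cx h1 g1 h.hb, h4, g4, h.vv]

theorem Nn_card [Finite G] (h : Bx W a b v p) (hR : Rz W a b 1 v) :
    2 * Nat.card (Cc W) ≤ Nat.card (Nn h) := by
  obtain ⟨y, hy, h1, h2⟩ := hR
  have hle : Cc W ≤ Nn h := fun x hx =>
    ⟨Mem.ofC h.cx hx, cm_of_comm (h.cx.comm h.ha hx), Or.inl (cm_of_comm (h.cx.comm h.hb hx))⟩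
  have hyN : y ∈ Nn h := ⟨hy, h1, Or.inr h2⟩
  have hyC : y ∉ Cc W := h.not_memC (Or.inr (by rw [h2]; exact h.hv))
  obtain ⟨c, hc⟩ := Subgroup.card_dvd_of_le hle
  have hpos : 0 < Nat.card (Nn h) := Nat.card_pos
  rcases c with _ | _ | c
  · omega
  · exfalso
    have := Subgroup.eq_of_le_of_card_ge hle (by rw [hc]; omega)
    exact hyC (this ▸ hyN)
  · rw [hc, mul_comm]; exact Nat.mul_le_mul_left _ (by omega)

end H87.MW7
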