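import Mathlib
import Cfsg.Prelude
import Cfsg.Agent.Lib.H87.MW7

set_option autoImplicit false
set_option maxHeartbeats 400000

/-! The homocyclic case. -/

namespace H87.MW8

open Subgroup H87.MW1 H87.MW2 H87.MW3 H87.MW4 H87.MW5 H87.MW6 H87.MW7

variable {G : Type*} [Group G] {W : Subgroup G} {a b v p : G}

theorem idx_le [Finite G] {N : Subgroup G} {k : ℕ} (h : Nat.card G ≤ k * Nat.card N) : N.index ≤ k := by
  rw [← Subgroup.card_mul_index N, mul_comm] at h
  exact Nat.le_of_mul_le_mul_right h Nat.card_pos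

theorem idx_eq_eight [Finite G] (hG : IsPGroup 2 G) {N : Subgroup G} (h1 : ¬ N.index ≤ 4)
    (h2 : N.index ≤ 8) : N.index = 8 := by
  haveI : Fact (Nat.Prime 2) := ⟨Nat.prime_two⟩
  obtain ⟨n, hn⟩ := hG.index N
  rw [hn] at h1 h2 ⊢
  have h3 : n ≤ 3 := by
    by_contra hcon
    have : 2 ^ 4 ≤ 2 ^ n := Nat.pow_le_pow_right (by norm_num) (by omega)
    omega
  interval_cases n <;> simp_all

theorem comm_in {N : Subgroup G} (h : ∀ g : G, g * g ∈ N) (x y : G) : cm x y ∈ N := by
  have : cm x y = (x⁻¹ * x⁻¹) * ((x * y⁻¹) * (x * y⁻¹)) * (y * y) := by unfold cm; group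
  rw [this]
  exact N.mul_mem (N.mul_mem (h _) (h _)) (h _)

theorem Bx_swap (h : Bx W a b v p) : Bx W b a p v where
  cx := h.cx
  ha := h.hb
  hb := h.ha
  hav := h.hbp
  hbp := h.hav
  hv := h.hp
  hp := h.hv
  hvp := fun e => h.hvp e.symm
  w0 := fun z hz => by
    rcases h.w0 z hz with e | e | e | e
    · exact Or.inl e
    · exact Or.inr (Or.inr (Or.inl e))
    · exact Or.inr (Or.inl e)
    · right; right; right; rw [e, h.pv]

theorem Bx_shear (h : Bx W a b v p) : Bx W (a * b) b (v * p) p where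
  cx := h.cx
  ha := W.mul_mem h.ha h.hb
  hb := h.hb
  hav := h.ab_sq
  hbp := h.hbp
  hv := h.vp_ne_one
  hp := h.hp
  hvp := h.vp_ne_p
  w0 := fun z hz => by
    rcases h.w0 z hz with e | e | e | e
    · exact Or.inl e
    · right; right; right; rw [e, h.vpp]
    · exact Or.inr (Or.inr (Or.inl e))
    · exact Or.inr (Or.inl e)

theorem Rz_all [Finite G] (h : Bx W a b v p) (hi : (chi h).range.index = 1) {s t : G}
    (hs : s ∈ OmS (Cc W) 1) (ht : t ∈ OmS (Cc W) 1) : Rz W a b s t := by
  rw [Subgroup.index_eq_one] at hi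
  have : ((⟨s, hs⟩ : W0s h.cx), (⟨t, ht⟩ : W0s h.cx)) ∈ (chi h).range := by rw [hi]; trivial
  exact (mem_range h).1 this

theorem Cc_normal (h : Cx W) : (Cc W).Normal := h.Cn

/-- finishing with index ≤ 4 -/
theorem fin4 [Finite G] (h : Bx W a b v p) (hcard : Nat.card (OmS (Cc W) 1) ≤ 4) (hE : NoE8 W)
    (hvc : ∀ g, cj v g = v) (hR : Rz W a b 1 v) (hG8 : Nat.card G ≤ 8 * Nat.card (Cc W)) :
    RK 4 (⊤ : Subgroup G) := by
  haveI := Nn_normal h hvc
  have h1 := Nn_RK h hcard hE hvc
  have h2 := Nn_card h hR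
  exact RK_of_index_le (a := 2) (b := 2) h1 (idx_le (by omega))

/-- the case `G = M` -/
theorem caseA [Finite G] (h : Bx W a b v p) (h4 : Nat.card (OmS (Cc W) 1) = 4) (hE : NoE8 W)
    (hM : ∀ g, Mem W g) : RK 4 (⊤ : Subgroup G) := by
  haveI := Cc_normal h.cx
  have hcM : Nat.card (Mm W) = Nat.card G := by
    have : Mm W = ⊤ := by
      rw [eq_top_iff]; intro x _; exact hM x
    rw [this]; exact Nat.card_congr Subgroup.topEquiv.toEquiv
  have hc := card_Mm h
  rw [hcM] at hc
  have hr := card_range_dvd h h4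
  set r := Nat.card (chi h).range with hrdef
  have hRC := RK_C h.cx h4.le
  by_cases hr4 : r ≤ 4
  · exact RK_of_index_le (a := 2) (b := 2) hRC
      (idx_le (by rw [hc]; exact Nat.mul_le_mul_right _ (by simpa using hr4)))
  have hi2 : (chi h).range.index ≤ 2 := by
    by_contra hcon
    have : 5 * 3 ≤ r * (chi h).range.index := Nat.mul_le_mul (by omega) (by omega)
    have h5 : (chi h).range.index = 3 := by
      by_contra hne
      have : 5 * 4 ≤ r * (chi h).range.index := Nat.mul_le_mul (by omega) (by omega)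
      omega
    rw [h5] at hr
    omega
  have hvz : ∀ z ∈ OmS (Cc W) 1, ∀ g, cj z g = z := fun z hz g => cj_fix (hM g z hz)
  -- no elements of order three
  have no3 : ∀ s t, s ≠ 1 → t ≠ 1 → s ≠ t → s ≠ v → t ≠ p → s * t ≠ v * p → ¬ Rz W a b s t := by
    rintro s t hs ht hst hsv htp hstp ⟨y, hy, rfl, rfl⟩
    have hsm := small_of_inv h.cx hy (h.inv_of hy hs ht hst)
    exact not_small h hE hy hsv htp hstp (h.not_memC (Or.inl hs))
      (fun g => cmC h.cx hy (hM g)) hsm
  have hpvp : p * (v * p) ≠ v * p := by rw [h.pvp]; exact fun e => h.vp_ne_v e.symm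
  have hvpv : (v * p) * v ≠ v * p := by rw [h.vpv]; exact fun e => h.vp_ne_p e.symm
  have n3a : ¬ Rz W a b p (v * p) := no3 _ _ h.hp h.vp_ne_one (fun e => h.vp_ne_p e.symm)
    (fun e => h.hvp e.symm) h.vp_ne_p hpvp
  have n3b : ¬ Rz W a b (v * p) v := no3 _ _ h.vp_ne_one h.hv h.vp_ne_v h.vp_ne_v h.hvp hvpv
  have hr8 : r = 8 := by
    have hne1 : (chi h).range.index ≠ 1 := fun e => n3a (Rz_all h e h.p1 h.vp1)
    have hne0 : (chi h).range.index ≠ 0 := Subgroup.index_ne_zero_of_finite
    have : (chi h).range.index = 2 := by omega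
    rw [this] at hr
    omega
  have hG8 : Nat.card G ≤ 8 * Nat.card (Cc W) := by rw [hc, hr8]
  by_cases n1 : Rz W a b 1 v
  · exact fin4 h h4.le hE (hvz v h.v1) n1 hG8
  by_cases n2 : Rz W a b p 1
  · obtain ⟨y, hy, e1, e2⟩ := n2
    exact fin4 (Bx_swap h) h4.le hE (hvz p h.p1) ⟨y, hy, e2, e1⟩ hG8
  by_cases n3 : Rz W a b (v * p) (v * p)
  · obtain ⟨y, hy, e1, e2⟩ := n3
    refine fin4 (Bx_shear h) h4.le hE (hvz _ h.vp1) ⟨y, hy, ?_, e2⟩ hG8
    rw [cm_mul_left h.cx hy h.ha h.hb, e1, e2, h.vpvp]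
  exfalso
  have m1 := I2 h hi2 (OmS_one) h.v1 h.p1 (OmS_one) n1 n2
  rw [one_mul, mul_one] at m1
  have n4 : ¬ Rz W a b v p := by
    intro e
    have := Rz.mul h m1 e
    rw [h.pv] at this
    exact n3 this
  have m2 := I2 h hi2 h.v1 h.p1 h.p1 h.vp1 n4 n3a
  rw [h.pvp] at m2
  exact n3b m2

/-- the case `G > M` -/
theorem caseB [Finite G] (hG : IsPGroup 2 G) (h : Bx W a b v p) (h4 : Nat.card (OmS (Cc W) 1) = 4)
    (hE : NoE8 W) (hvc : ∀ g, cj v g = v) {g0 : G} (hg0 : ¬ Mem W g0) : RK 4 (⊤ : Subgroup G) := by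
  haveI := Cc_normal h.cx
  have hmem : ∀ g, cj p g = p → Mem W g := by
    intro g hg z hz
    have key : ∀ u : G, cj u g = u → u * g = g * u := by
      intro u hu
      unfold cj at hu
      calc u * g = g * (g⁻¹ * u * g) := by group
        _ = g * u := by rw [hu]
    rcases h.w0 z hz with e | e | e | e
    · rw [e]; simp
    · rw [e]; exact key v (hvc g)
    · rw [e]; exact key p hg
    · rw [e]; exact key _ (by rw [cj_mul, hvc, hg])
  have hpg : cj p g0 = v * p := by
    rcases p_cj h hvc g0 with e | e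
    · exact absurd (hmem g0 e) hg0
    · exact e
  have hcM : Nat.card G ≤ 2 * Nat.card (Mm W) := by
    have := card_le_two_mul (H := (⊤ : Subgroup G)) (K := Mm W) (y := g0) (by
      intro x _
      by_cases hx : Mem W x
      · exact Or.inl hx
      · right
        refine hmem _ ?_
        have hx2 : cj p x = v * p := by
          rcases p_cj h hvc x with e | e
          · exact absurd (hmem x e) hx
          · exact e
        rw [← cj_cj, hpg, cj_mul, hvc, hx2, h.vvp])
    rwa [Nat.card_congr Subgroup.topEquiv.toEquiv] at this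
  have hc := card_Mm h
  have hr := card_range_dvd h h4
  set r := Nat.card (chi h).range with hrdef
  have hRC := RK_C h.cx h4.le
  have hle : Nat.card G ≤ (2 * r) * Nat.card (Cc W) := by
    rw [hc, ← mul_assoc] at hcM; exact hcM
  by_cases hr2 : r ≤ 2
  · exact RK_of_index_le (a := 2) (b := 2) hRC
      (idx_le (hle.trans (Nat.mul_le_mul_right _ (by norm_num; omega))))
  by_cases hr4 : r ≤ 4
  · -- r = 4 (or 3)
    have hG8 : Nat.card G ≤ 8 * Nat.card (Cc W) := hle.trans (Nat.mul_le_mul_right _ (by omega))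
    by_cases hi4 : (Cc W).index ≤ 4
    · exact RK_of_index_le (a := 2) (b := 2) hRC hi4
    have hi8 := idx_eq_eight hG hi4 (idx_le hG8)
    by_cases hsq : ∃ g : G, g * g ∉ Cc W
    · exact RK_of_index_eight hRC hi8 hsq
    push Not at hsq
    have hR : Rz W a b 1 v := by
      by_contra hn
      have hres : ∀ y, Mem W y → (cm a y = 1 ∧ cm b y = 1) ∨
          (cm a y = v ∧ (cm b y = p ∨ cm b y = v * p)) := by
        intro y hy
        have h1 : cm y g0 ∈ Cc W := comm_in hsq y g0
        have hyc : Mem W (cj y g0) := hy.cj h.cx g0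
        have e1 : ∀ w ∈ W, cm w (cj y g0) = cm w y := by
          intro w hw
          rw [cj_eq, cm_mul_right h.cx hy (Mem.ofC h.cx h1) hw, cm_of_comm (h.cx.comm hw h1), mul_one]
        have ea := e1 a h.ha
        rw [cm_a_cj h hvc hy] at ea
        have eb := e1 b h.hb
        rw [cm_b_cj h hvc hy hpg] at eb
        have ma := cmW h.cx hy h.ha
        have mb := cmW h.cx hy h.hb
        rcases h.w0 _ ma with f | f | f | f
        · left
          refine ⟨f, ?_⟩
          rw [f, one_mul] at eb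
          rcases h.w0 _ mb with k | k | k | k
          · exact k
          · exact absurd ⟨y, hy, f, k⟩ hn
          · rw [k, hpg] at eb; exact absurd eb h.vp_ne_p
          · rw [k, cj_mul, hvc, hpg, h.vvp] at eb; exact absurd eb.symm h.vp_ne_p
        · right
          refine ⟨f, ?_⟩
          rw [f] at eb
          rcases h.w0 _ mb with k | k | k | k
          · rw [k, mul_one, hvc] at eb; exact absurd eb h.hv
          · rw [k, h.vv, cj_one] at eb; exact absurd eb.symm h.hv
          · exact Or.inl k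
          · exact Or.inr k
        · rw [f, hpg] at ea; exact absurd ea h.vp_ne_p
        · rw [f, cj_mul, hvc, hpg, h.vvp] at ea; exact absurd ea.symm h.vp_ne_p
      have hle2 : Nat.card (Mm W) ≤ 2 * Nat.card (Cc W) := by
        classical
        have := card_le_fiber (H := Mm W) (K := Cc W) (fun y => cm a y) {1, v} (by
          intro y hy
          rcases hres y hy with e | e
          · simp [e.1]
          · simp [e.1]) (by
          intro x hx y hy hxy
          have hxM : Mem W x := hx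
          have hyM : Mem W y := hy
          change cm a x = cm a y at hxy
          refine h.memC (hxM.inv.mul hyM) ?_ ?_
          · rw [cm_mul_right h.cx hxM.inv hyM h.ha, cm_inv_right h.cx hxM h.ha, hxy]
            exact h.cx.sq1 (cmW h.cx hyM h.ha)
          · rw [cm_mul_right h.cx hxM.inv hyM h.hb, cm_inv_right h.cx hxM h.hb]
            rcases hres x hxM with e | e <;> rcases hres y hyM with f | f
            · rw [e.2, f.2, mul_one]
            · rw [e.1, f.1] at hxy; exact absurd hxy.symm h.hv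
            · rw [e.1, f.1] at hxy; exact absurd hxy h.hv
            · rcases e.2 with e2 | e2 <;> rcases f.2 with f2 | f2
              · rw [e2, f2, h.pp]
              · exfalso; apply hn
                refine ⟨x * y, hxM.mul hyM, ?_, ?_⟩
                · rw [cm_mul_right h.cx hxM hyM h.ha, e.1, f.1, h.vv]
                · rw [cm_mul_right h.cx hxM hyM h.hb, e2, f2, h.pvp]
              · exfalso; apply hn
                refine ⟨x * y, hxM.mul hyM, ?_, ?_⟩
                · rw [cm_mul_right h.cx hxM hyM h.ha, e.1, f.1, h.vv]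
                · rw [cm_mul_right h.cx hxM hyM h.hb, e2, f2, h.vpp]
              · rw [e2, f2, h.vpvp])
        refine this.trans (Nat.mul_le_mul_right _ ?_)
        exact Finset.card_le_two
      rw [hc] at hle2
      have := Nat.le_of_mul_le_mul_right hle2 Nat.card_pos
      omega
    exact fin4 h h4.le hE hvc hR hG8
  -- r ≥ 8
  have hi2 : (chi h).range.index ≤ 2 := by
    by_contra hcon
    have : 5 * 3 ≤ r * (chi h).range.index := Nat.mul_le_mul (by omega) (by omega)
    have h5 : (chi h).range.index = 3 := by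
      by_contra hne
      have : 5 * 4 ≤ r * (chi h).range.index := Nat.mul_le_mul (by omega) (by omega)
      omega
    rw [h5] at hr
    omega
  have hR : Rz W a b 1 v := by
    by_contra n
    have n1 : ¬ Rz W a b v 1 := by
      rintro ⟨y, hy, e1, e2⟩
      have : Rz W a b v v := ⟨cj y g0, hy.cj h.cx g0, by rw [cm_a_cj h hvc hy, e1, hvc],
        by rw [cm_b_cj h hvc hy hpg, e1, e2, mul_one, hvc]⟩
      have := Rz.mul h ⟨y, hy, e1, e2⟩ this
      rw [h.vv, one_mul] at this
      exact n this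
    have m := I2 h hi2 OmS_one h.v1 h.v1 OmS_one n n1
    rw [one_mul, mul_one] at m
    obtain ⟨y, hy, e1, e2⟩ := m
    apply n1
    exact ⟨cj y g0, hy.cj h.cx g0, by rw [cm_a_cj h hvc hy, e1, hvc],
      by rw [cm_b_cj h hvc hy hpg, e1, e2, h.vv, cj_one]⟩
  have nsv : ∀ y, Mem W y → cm a y = 1 → cm b y = v → y * y ∉ OmS (Cc W) 1 := fun y hy h1 h2 =>
    Nn_not_small h hE hvc hy h1 h2
  have hnp : ¬ Rz W a b 1 p := by
    rintro ⟨y2, h2, h2a, h2b⟩
    obtain ⟨y1, h1, h1a, h1b⟩ := hR
    refine stepI h h1 h2 h1a h1b h2a (by rw [h2b]; exact h.hp)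
      (by rw [h2b]; exact fun e => h.hvp e.symm) ?_
    intro t ht hta htb hts
    have htc : Mem W (cj t g0) := ht.cj h.cx g0
    have hts' : cj t g0 * cj t g0 ∈ OmS (Cc W) 1 := by rw [← cj_mul]; exact h.cx.cjOm hts g0
    have ea : cm a (cj t g0) = 1 := by rw [cm_a_cj h hvc ht, hta, cj_one]
    have eb : cm b (cj t g0) = cj (cm b t) g0 := by rw [cm_b_cj h hvc ht hpg, hta, one_mul]
    have ha1 : cm a (t * cj t g0) = 1 := by rw [cm_mul_right h.cx ht htc h.ha, hta, ea, mul_one]
    have mb := cmW h.cx ht h.hb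
    rcases h.w0 _ mb with k | k | k | k
    · exact htb k
    · exact nsv t ht hta k hts
    · have hb1 : cm b (t * cj t g0) = v := by
        rw [cm_mul_right h.cx ht htc h.hb, eb, k, hpg, h.pvp]
      exact nsv _ (ht.mul htc) ha1 hb1
        (two_small h ht htc hts hts' hta ha1 (by rw [hb1]; exact h.hv))
    · have hb1 : cm b (t * cj t g0) = v := by
        rw [cm_mul_right h.cx ht htc h.hb, eb, k, cj_mul, hvc, hpg, h.vvp, h.vpp]
      exact nsv _ (ht.mul htc) ha1 hb1
        (two_small h ht htc hts hts' hta ha1 (by rw [hb1]; exact h.hv))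
  have hidx : (chi h).range.index = 2 := by
    have hne1 : (chi h).range.index ≠ 1 := fun e => hnp (Rz_all h e OmS_one h.p1)
    have hne0 : (chi h).range.index ≠ 0 := Subgroup.index_ne_zero_of_finite
    omega
  have hr8 : r = 8 := by rw [hidx] at hr; omega
  haveI := Nn_normal h hvc
  have hRN := Nn_RK h h4.le hE hvc
  have hcN := Nn_card h hR
  have hi8 : (Nn h).index ≤ 8 := idx_le (by rw [hr8] at hle; omega)
  by_cases hi4 : (Nn h).index ≤ 4
  · exact RK_of_index_le (a := 2) (b := 2) hRN hi4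
  have hi8' := idx_eq_eight hG hi4 hi8
  by_cases hsq : ∃ g : G, g * g ∉ Nn h
  · exact RK_of_index_eight hRN hi8' hsq
  push Not at hsq
  exfalso
  have hres : ∀ y, Mem W y → cm a y ≠ p := by
    intro y hy e
    have h1 : cm y g0 ∈ Nn h := comm_in hsq y g0
    have e1 : cm a (cj y g0) = cm a y := by
      rw [cj_eq, cm_mul_right h.cx hy h1.1 h.ha, h1.2.1, mul_one]
    rw [cm_a_cj h hvc hy, e, hpg] at e1
    exact h.vp_ne_p e1
  have hn2 : ¬ Rz W a b p 1 := by
    rintro ⟨y, hy, e1, -⟩
    exact hres y hy e1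
  have m := I2 h hi2 OmS_one h.p1 h.p1 OmS_one hnp hn2
  obtain ⟨y, hy, e1, -⟩ := m
  rw [one_mul] at e1
  exact hres y hy e1

end H87.MW8
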