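import Mathlib
import Cfsg.Prelude
import Cfsg.Agent.Lib.H87.MW8

set_option autoImplicit false
set_option maxHeartbeats 400000

/-! MacWilliams' theorem. -/

namespace H87.MW9

open Subgroup H87.MW1 H87.MW2 H87.MW3 H87.MW4 H87.MW5 H87.MW6 H87.MW7 H87.MW8

variable {G : Type*} [Group G] {W : Subgroup G}

theorem RK_Ck [Finite G] (h : Cx W) {k : ℕ} (hc : Nat.card (OmS (Cc W) 1) ≤ 2 ^ k) : RK k (Cc W) := by
  intro H hH
  refine (card_le_of_Om (h.z2.sub hH)).trans (Nat.mul_le_mul_right _ ?_)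
  refine le_trans ?_ hc
  refine Nat.card_le_card_of_injective (fun x : OmS H 1 => (⟨x, hH x.2.1, x.2.2⟩ : OmS (Cc W) 1)) ?_
  intro x y hxy
  exact Subtype.ext (congrArg (fun q : OmS (Cc W) 1 => (q : G)) hxy)

theorem four_le [Finite G] (h : Cx W) {x y : G} (hx : x ∈ OmS (Cc W) 1) (hy : y ∈ OmS (Cc W) 1)
    (hx1 : x ≠ 1) (hy1 : y ≠ 1) (hxy : x ≠ y) : 4 ≤ Nat.card (OmS (Cc W) 1) ∧
    (Nat.card (OmS (Cc W) 1) = 4 → ∀ z ∈ OmS (Cc W) 1, z = 1 ∨ z = x ∨ z = y ∨ z = x * y) := by
  classical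
  have hxx := h.sq1 hx
  have hyy := h.sq1 hy
  have e1 : x * y ≠ 1 := by
    intro e
    apply hxy
    calc x = x * (y * y) := by rw [hyy, mul_one]
      _ = y := by rw [← mul_assoc, e, one_mul]
  have e2 : x * y ≠ x := fun e => hy1 (by simpa using e)
  have e3 : x * y ≠ y := fun e => hx1 (by simpa using e)
  set S : Finset G := {1, x, y, x * y} with hS
  have hcS : S.card = 4 := by
    rw [hS, Finset.card_insert_of_notMem, Finset.card_insert_of_notMem,
      Finset.card_insert_of_notMem, Finset.card_singleton]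
    · simpa using fun e : y = x * y => e3 e.symm
    · simp only [Finset.mem_insert, Finset.mem_singleton, not_or]
      exact ⟨hxy, fun e => e2 e.symm⟩
    · simp only [Finset.mem_insert, Finset.mem_singleton, not_or]
      exact ⟨fun e => hx1 e.symm, fun e => hy1 e.symm, fun e => e1 e.symm⟩
  have hsub : (S : Set G) ⊆ OmS (Cc W) 1 := by
    intro z hz
    simp only [hS, Finset.coe_insert, Finset.coe_singleton, Set.mem_insert_iff,
      Set.mem_singleton_iff] at hz
    rcases hz with e | e | e | e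
    · rw [e]; exact OmS_one
    · rw [e]; exact hx
    · rw [e]; exact hy
    · rw [e]; exact h.mul1 hx hy
  have hn : (S : Set G).ncard = 4 := by rw [Set.ncard_coe_finset, hcS]
  refine ⟨?_, ?_⟩
  · rw [Nat.card_coe_set_eq, ← hn]
    exact Set.ncard_le_ncard hsub (Set.toFinite _)
  · intro hc z hz
    have heq : (S : Set G) = OmS (Cc W) 1 := by
      refine Set.eq_of_subset_of_ncard_le hsub ?_ (Set.toFinite _)
      rw [hn, ← Nat.card_coe_set_eq, hc]
    rw [← heq] at hz
    simpa [hS] using hz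

theorem cm_eq_of_sq' (h : Cx W) {g w u : G} (hg : ∀ z ∈ OmS (Cc W) 1, z * g = g * z) (hw : w ∈ W)
    (hu : u ∈ W) (hwu : w * w = u * u) : cm w g = cm u g := cm_eq_of_sq h hg hw hu hwu

/-- few involutions -/
theorem small0 [Finite G] (h : Cx W) {z : G} (hz : z ∈ OmS (Cc W) 1)
    (hall : ∀ u ∈ OmS (Cc W) 1, u = 1 ∨ u = z) : RK 4 (⊤ : Subgroup G) := by
  classical
  haveI := h.Cn
  have hc : Nat.card (OmS (Cc W) 1) ≤ 2 ^ 1 := by
    rw [Nat.card_coe_set_eq]
    have : OmS (Cc W) 1 ⊆ (({1, z} : Finset G) : Set G) := by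
      intro u hu
      simpa using hall u hu
    refine (Set.ncard_le_ncard this (Set.toFinite _)).trans ?_
    rw [Set.ncard_coe_finset]
    exact Finset.card_le_two
  have hRC := RK_Ck h hc
  have hzc : ∀ g, ∀ u ∈ OmS (Cc W) 1, cj u g = u := by
    intro g u hu
    rcases hall _ (h.cjOm hu g) with e | e
    · have : u = 1 := by
        have h2 : cj (cj u g) g⁻¹ = 1 := by rw [e, cj_one]
        rw [cj_cj, mul_inv_cancel] at h2
        simpa [cj] using h2
      rw [this, cj_one]
    · rcases hall u hu with f | f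
      · rw [f, cj_one]
      · rw [e, f]
  have hM : ∀ g, Mem W g := by
    intro g u hu
    have := hzc g u hu
    unfold cj at this
    calc u * g = g * (g⁻¹ * u * g) := by group
      _ = g * u := by rw [this]
  have key : ∀ g, g ∉ Cc W → ∀ w ∈ W, w * w ≠ 1 → cm w g = z := by
    intro g hg w hw hww
    rw [Subgroup.mem_centralizer_iff] at hg
    push Not at hg
    obtain ⟨u, hu, hug⟩ := hg
    have hu1 : cm u g ≠ 1 := fun e => hug (comm_of_cm e)
    have huz : cm u g = z := (hall _ (cmW h (hM g) hu)).resolve_left hu1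
    have huu : u * u ≠ 1 := fun e => hu1 (cm_of_comm (hM g u (h.om1.2 ⟨hu, e⟩)))
    have e1 := (hall _ (h.sqW hu)).resolve_left huu
    have e2 := (hall _ (h.sqW hw)).resolve_left hww
    rw [cm_eq_of_sq h (hM g) hw hu (by rw [e1, e2]), huz]
  refine RK_of_index_le (a := 1) (b := 3) hRC ?_
  by_cases hC : ∀ g, g ∈ Cc W
  · have : Cc W = ⊤ := by rw [eq_top_iff]; intro x _; exact hC x
    rw [this]; simp
  push Not at hC
  obtain ⟨g0, hg0⟩ := hC
  have hle : Nat.card G ≤ 2 * Nat.card (Cc W) := by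
    have := card_le_two_mul (H := (⊤ : Subgroup G)) (K := Cc W) (y := g0) (by
      intro x _
      by_cases hx : x ∈ Cc W
      · exact Or.inl hx
      · right
        refine Subgroup.mem_centralizer_iff.2 fun w hw => comm_of_cm ?_
        by_cases hww : w * w = 1
        · exact cm_of_comm (hM _ w (h.om1.2 ⟨hw, hww⟩))
        · rw [cm_mul_right h (hM g0) (hM x) hw, key g0 hg0 w hw hww, key x hx w hw hww, h.sq1 hz])
    rwa [Nat.card_congr Subgroup.topEquiv.toEquiv] at this
  exact (idx_le hle).trans (by norm_num)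

theorem noE8_of [Finite G] (h : Cx W) (h4 : Nat.card (OmS (Cc W) 1) = 4)
    (hE0 : ∀ A : Subgroup G, A.Normal → IsMulCommutative A → (∀ a ∈ A, a ^ 2 = 1) → Nat.card A ≤ 4) :
    NoE8 W := by
  intro s hs hsM hsg
  by_contra hcon
  haveI := W0s_normal h
  obtain ⟨a1, a2, a3⟩ := adjoin (W := W0s h) (x := s)
    (fun x hx y hy => h.ab _ (h.om1W hx) _ (h.om1W hy)) (fun w hw => hsM w hw) hsg
  have h5 := hE0 _ a1 ⟨⟨fun x y => Subtype.ext (a2 x x.2 y y.2)⟩⟩
    (a3 2 (fun w hw => by rw [pow_two]; exact h.sq1 hw) (by rw [pow_two]; exact hs))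
  have hle : W0s h ≤ W0s h ⊔ zpowers s := le_sup_left
  have h6 : Nat.card (W0s h) = 4 := h4
  have := Subgroup.eq_of_le_of_card_ge hle (by rw [h6]; exact h5)
  apply hcon
  have hm : s ∈ W0s h ⊔ zpowers s := Subgroup.mem_sup_right (Subgroup.mem_zpowers s)
  rw [← this] at hm
  exact hm

/-- Four involutions case -/
theorem big [Finite G] (hG : IsPGroup 2 G) (h : Cx W) (h4 : Nat.card (OmS (Cc W) 1) = 4)
    (hE : NoE8 W) : RK 4 (⊤ : Subgroup G) := by
  classical
  haveI : Fact (Nat.Prime 2) := ⟨Nat.prime_two⟩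
  haveI := h.Cn
  haveI := W0s_normal h
  have hRC := RK_C h h4.le
  -- central element of `Ω₁` and a second one, given any central `v`
  have hp : ∀ v ∈ OmS (Cc W) 1, v ≠ 1 → ∃ p ∈ OmS (Cc W) 1, p ≠ 1 ∧ p ≠ v := by
    intro v hv hv1
    by_contra hcon
    push Not at hcon
    have hsub : OmS (Cc W) 1 ⊆ (({1, v} : Finset G) : Set G) := by
      intro u hu
      by_cases hu1 : u = 1
      · simp [hu1]
      · simp [hcon u hu hu1]
    have := Set.ncard_le_ncard hsub (Set.toFinite _)
    rw [Set.ncard_coe_finset, ← Nat.card_coe_set_eq, h4] at this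
    have h2 := Finset.card_le_two (a := (1 : G)) (b := v)
    omega
  -- general facts for given central v
  have gen : ∀ v ∈ OmS (Cc W) 1, v ≠ 1 → (∀ g, cj v g = v) → ∀ p ∈ OmS (Cc W) 1, p ≠ 1 → p ≠ v →
      (∀ z ∈ OmS (Cc W) 1, z = 1 ∨ z = v ∨ z = p ∨ z = v * p) ∧
      (∀ g, cj p g = p → Mem W g) ∧ (∀ g, cj p g = p ∨ cj p g = v * p) := by
    intro v hv hv1 hvc p hp hp1 hpv
    have hw0 := (four_le h hv hp hv1 hp1 (Ne.symm hpv)).2 h4
    refine ⟨hw0, ?_, ?_⟩
    · intro g hg z hz
      have key : ∀ u : G, cj u g = u → u * g = g * u := by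
        intro u hu
        unfold cj at hu
        calc u * g = g * (g⁻¹ * u * g) := by group
          _ = g * u := by rw [hu]
      rcases hw0 z hz with e | e | e | e
      · rw [e]; simp
      · rw [e]; exact key v (hvc g)
      · rw [e]; exact key p hg
      · rw [e]; exact key _ (by rw [cj_mul, hvc, hg])
    · intro g
      rcases hw0 _ (h.cjOm hp g) with e | e | e | e
      · exfalso; apply hp1
        have : cj (cj p g) g⁻¹ = 1 := by rw [e, cj_one]
        rw [cj_cj, mul_inv_cancel] at this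
        simpa [cj] using this
      · exfalso; apply hpv
        have : cj (cj p g) g⁻¹ = v := by rw [e, hvc]
        rw [cj_cj, mul_inv_cancel] at this
        simpa [cj] using this
      · exact Or.inl e
      · exact Or.inr e
  have cardM : ∀ v ∈ OmS (Cc W) 1, v ≠ 1 → (∀ g, cj v g = v) → ∀ p ∈ OmS (Cc W) 1, p ≠ 1 → p ≠ v →
      Nat.card G ≤ 2 * Nat.card (Mm W) := by
    intro v hv hv1 hvc p hp hp1 hpv
    obtain ⟨g1, g2, g3⟩ := gen v hv hv1 hvc p hp hp1 hpv
    by_cases hall : ∀ g, Mem W g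
    · have : Mm W = ⊤ := by rw [eq_top_iff]; intro x _; exact hall x
      rw [this, Nat.card_congr Subgroup.topEquiv.toEquiv]; omega
    push Not at hall
    obtain ⟨g0, hg0⟩ := hall
    have := card_le_two_mul (H := (⊤ : Subgroup G)) (K := Mm W) (y := g0) (by
      intro x _
      by_cases hx : Mem W x
      · exact Or.inl hx
      · right
        refine g2 _ ?_
        have e1 := (g3 x).resolve_left (fun e => hx (g2 x e))
        have e2 := (g3 g0).resolve_left (fun e => hg0 (g2 g0 e))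
        rw [← cj_cj, e2, cj_mul, hvc, e1, ← mul_assoc, h.sq1 hv, one_mul])
    rwa [Nat.card_congr Subgroup.topEquiv.toEquiv] at this
  -- a central element
  have hne : W0s h ≠ ⊥ := by
    intro e
    have : Nat.card (W0s h) = 4 := h4
    rw [e, Subgroup.card_bot] at this
    omega
  obtain ⟨v, hv, hv1, hvc'⟩ := H37.PBasic.exists_mem_center_of_normal hG (W0s h) hne
  have hvc : ∀ g, cj v g = v := fun g => cj_of_comm (Subgroup.mem_center_iff.1 hvc' g).symm
  obtain ⟨p, hpm, hp1, hpv⟩ := hp v hv hv1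
  by_cases hcase1 : ∀ w ∈ W, w * w = 1
  · -- W = Ω₁
    have hMC : Mm W ≤ Cc W := by
      intro y hy
      refine Subgroup.mem_centralizer_iff.2 fun w hw => hy w (h.om1.2 ⟨hw, hcase1 w hw⟩)
    have h1 := cardM v hv hv1 hvc p hpm hp1 hpv
    have h2 := Nat.le_of_dvd Nat.card_pos (Subgroup.card_dvd_of_le hMC)
    exact (RK_of_index_le (a := 2) (b := 1) hRC (idx_le (by omega))).le (by norm_num)
  push Not at hcase1
  obtain ⟨a, ha, haa⟩ := hcase1
  by_cases hcase2 : ∀ w ∈ W, w * w = 1 ∨ w * w = a * a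
  · -- type (4,2)
    set z := a * a with hz
    have hz1 : z ∈ OmS (Cc W) 1 := h.sqW ha
    have hzc : ∀ g, cj z g = z := by
      intro g
      have e1 : cj z g = cj a g * cj a g := by rw [hz, cj_mul]
      rcases hcase2 _ (h.cjW ha g) with e | e
      · exfalso; apply haa
        rw [e] at e1
        have : cj (cj z g) g⁻¹ = 1 := by rw [e1, cj_one]
        rw [cj_cj, mul_inv_cancel] at this
        simpa [cj] using this
      · rw [e1, e]
    obtain ⟨q, hq, hq1, hqz⟩ := hp z hz1 haa
    obtain ⟨g1, g2, g3⟩ := gen z hz1 haa hzc q hq hq1 hqz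
    have hG2 := cardM z hz1 haa hzc q hq hq1 hqz
    have memC : ∀ y, Mem W y → cm a y = 1 → y ∈ Cc W := by
      intro y hy e
      refine Subgroup.mem_centralizer_iff.2 fun w hw => comm_of_cm ?_
      rcases hcase2 w hw with f | f
      · exact cm_of_comm (hy w (h.om1.2 ⟨hw, f⟩))
      · rw [cm_eq_of_sq h hy hw ha (by rw [f, hz]), e]
    have hfib : ∀ x ∈ Mm W, ∀ y ∈ Mm W, cm a x = cm a y → x⁻¹ * y ∈ Cc W := by
      intro x hx y hy hxy
      have hxM : Mem W x := hx
      have hyM : Mem W y := hy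
      refine memC _ (hxM.inv.mul hyM) ?_
      rw [cm_mul_right h hxM.inv hyM ha, cm_inv_right h hxM ha, hxy]
      exact h.sq1 (cmW h hyM ha)
    have hM4 : Nat.card (Mm W) ≤ 4 * Nat.card (Cc W) := by
      have := card_le_fiber (H := Mm W) (K := Cc W) (fun y => cm a y) {1, z, q, z * q} (by
        intro y hy
        rcases g1 _ (cmW h hy ha) with e | e | e | e <;> simp [e]) hfib
      refine this.trans (Nat.mul_le_mul_right _ ?_)
      exact Finset.card_le_four
    have hi8 : (Cc W).index ≤ 8 := idx_le (by omega)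
    by_cases hi4 : (Cc W).index ≤ 4
    · exact RK_of_index_le (a := 2) (b := 2) hRC hi4
    have hi8' := idx_eq_eight hG hi4 hi8
    by_cases hsq : ∃ g : G, g * g ∉ Cc W
    · exact RK_of_index_eight hRC hi8' hsq
    push Not at hsq
    exfalso
    by_cases hall : ∀ g, Mem W g
    · apply hi4
      refine idx_le ?_
      have : Mm W = ⊤ := by rw [eq_top_iff]; intro x _; exact hall x
      rw [this, Nat.card_congr Subgroup.topEquiv.toEquiv] at hM4
      exact hM4
    push Not at hall
    obtain ⟨g0, hg0⟩ := hall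
    have hqg := (g3 g0).resolve_left (fun e => hg0 (g2 g0 e))
    have hres : ∀ y, Mem W y → cm a y = 1 ∨ cm a y = z := by
      intro y hy
      have hc := comm_in hsq y g0
      have e1 : cm a (cj y g0) = cm a y := by
        rw [cj_eq, cm_mul_right h hy (Mem.ofC h hc) ha, cm_of_comm (h.comm ha hc), mul_one]
      have e2 : cm a (cj y g0) = cj (cm a y) g0 := by
        rw [cm_cj]
        congr 1
        refine cm_eq_of_sq h hy (h.cjW ha _) ha ?_
        rw [← cj_mul, ← hz, hzc]
      rw [e2] at e1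
      rcases g1 _ (cmW h hy ha) with e | e | e | e
      · exact Or.inl e
      · exact Or.inr e
      · exfalso
        rw [e, hqg] at e1
        exact haa (by simpa using e1)
      · exfalso
        rw [e, cj_mul, hzc, hqg, ← mul_assoc, h.sq1 hz1, one_mul] at e1
        exact haa (by simpa using e1.symm)
    apply hi4
    refine idx_le ?_
    have hM2 : Nat.card (Mm W) ≤ 2 * Nat.card (Cc W) := by
      have := card_le_fiber (H := Mm W) (K := Cc W) (fun y => cm a y) {1, z} (by
        intro y hy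
        rcases hres y hy with e | e <;> simp [e]) hfib
      refine this.trans (Nat.mul_le_mul_right _ ?_)
      exact Finset.card_le_two
    omega
  -- homocyclic
  push Not at hcase2
  obtain ⟨u, hu, hu1, hua⟩ := hcase2
  have hw0 := (four_le h (h.sqW ha) (h.sqW hu) haa hu1 (Ne.symm hua)).2 h4
  have hau : (a * u) * (a * u) = (a * a) * (u * u) := by
    calc (a * u) * (a * u) = a * (u * a) * u := by group
      _ = a * (a * u) * u := by rw [h.ab u hu a ha]
      _ = _ := by group
  have hsurj : ∀ z ∈ OmS (Cc W) 1, ∃ w ∈ W, w * w = z := by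
    intro z hz
    rcases hw0 z hz with e | e | e | e
    · exact ⟨1, W.one_mem, by rw [e, mul_one]⟩
    · exact ⟨a, ha, e.symm⟩
    · exact ⟨u, hu, e.symm⟩
    · exact ⟨a * u, W.mul_mem ha hu, by rw [hau, e]⟩
  obtain ⟨a', ha', hav⟩ := hsurj v hv
  obtain ⟨b', hb', hbp⟩ := hsurj p hpm
  obtain ⟨g1, g2, g3⟩ := gen v hv hv1 hvc p hpm hp1 hpv
  have hB : Bx W a' b' v p := ⟨h, ha', hb', hav, hbp, hv1, hp1, Ne.symm hpv, g1⟩
  by_cases hall : ∀ g, Mem W g
  · exact caseA hB h4 hE hall
  push Not at hall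
  obtain ⟨g0, hg0⟩ := hall
  exact caseB hG hB h4 hE hvc hg0

/-- MacWilliams -/
theorem main [Finite G] (hG : IsPGroup 2 G)
    (hE0 : ∀ A : Subgroup G, A.Normal → IsMulCommutative A → (∀ a ∈ A, a ^ 2 = 1) → Nat.card A ≤ 4) :
    RK 4 (⊤ : Subgroup G) := by
  obtain ⟨W, hWn, hab, h4, hC⟩ := exists_W hG
  have h : Cx W := ⟨hWn, hab, h4, hC, fun x => hG x⟩
  have hle : Nat.card (OmS (Cc W) 1) ≤ 4 := by
    refine hE0 (W0s h) (W0s_normal h) ⟨⟨fun x y => Subtype.ext (hab x (h.om1W x.2) y (h.om1W y.2))⟩⟩ ?_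
    intro x hx; rw [pow_two]; exact h.sq1 hx
  by_cases h4' : Nat.card (OmS (Cc W) 1) = 4
  · exact big hG h h4' (noE8_of h h4' hE0)
  · by_cases hex : ∃ z ∈ OmS (Cc W) 1, z ≠ 1
    · obtain ⟨z, hz, hz1⟩ := hex
      refine small0 h hz ?_
      intro u hu
      by_contra hcon
      push Not at hcon
      have := (four_le h hz hu hz1 hcon.1 (Ne.symm hcon.2)).1
      omega
    · push Not at hex
      exact small0 h OmS_one (fun u hu => Or.inl (hex u hu))

end H87.MW9
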