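import Cfsg.Agent.Lib.H87.Strict
set_option autoImplicit false

open Cfsg Cfsg.FusionSystem

namespace H87.Strict
open H87.Base H87.Basic H87.Syl H87.Sat H87.Grow H87.Inv H87.Frat H87.PPow H87.CMap H87.Bridge H87.ConstrEq H87.Grp

variable {G : Type*} [Group G] {Q R D T H : Subgroup G} {p : ℕ} [Finite G] [Fact p.Prime] (S : Sylow p G)
  {E : FusionSystem T}

/-- The subgroup `Y`. -/
def yg (E : FusionSystem T) (R : Subgroup G) (hRT : R ≤ T) (hR : R.Normal) (p : ℕ) : Subgroup G :=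
  xg E R hRT hR ⊓ actMod (pCore p G ⊓ Subgroup.centralizer (R : Set G)) R hR

theorem mem_yg {hRT : R ≤ T} {hR : R.Normal} {g : G} : g ∈ yg E R hRT hR p ↔
    IsMap E R (fun x => g * x * g⁻¹) ∧ ∀ d ∈ pCore p G, (∀ x ∈ R, x * d = d * x) → d⁻¹ * (g * d * g⁻¹) ∈ R := by
  constructor
  · rintro ⟨h1, h2⟩
    exact ⟨h1, fun d hd hdx => h2 d ⟨hd, Subgroup.mem_centralizer_iff.2 hdx⟩⟩
  · rintro ⟨h1, h2⟩
    exact ⟨h1, fun d hd => h2 d hd.1 (Subgroup.mem_centralizer_iff.1 hd.2)⟩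

theorem yg_normal (hI : SInv (groupFusionSystem (S : Subgroup G)) E) (hTS : T ≤ (S : Subgroup G)) (hRT : R ≤ T) (hR : R.Normal) :
    (yg E R hRT hR p).Normal := by
  have h1 := xg_normal S hI hTS hRT hR
  have hCn : (Subgroup.centralizer (R : Set G)).Normal := Subgroup.normal_centralizer
  have h2 := actMod_normal (D := pCore p G ⊓ Subgroup.centralizer (R : Set G)) (R := R)
    (Subgroup.normal_inf_normal _ _) hR
  exact Subgroup.normal_inf_normal _ _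

theorem yg_centralizer_le (hG : Subgroup.centralizer ((pCore p G : Subgroup G) : Set G) ≤ pCore p G)
    (hRT : R ≤ T) (hR : R.Normal) (hRQ : R ≤ pCore p G) {g : G} (hg : g ∈ yg E R hRT hR p)
    (h : ∀ x ∈ R, x * g = g * x) : g ∈ pCore p G :=
  zt_le hG hR hRQ ⟨Subgroup.mem_centralizer_iff.2 h, hg.2⟩

theorem le_yg (hT : (groupFusionSystem (S : Subgroup G)).StronglyClosed T) (hRT : T ⊓ pCore p G ≤ T)
    (hR : (T ⊓ pCore p G).Normal) : T ≤ yg E (T ⊓ pCore p G) hRT hR p := by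
  intro t ht
  rw [mem_yg]
  refine ⟨isMap_conj E hRT ht, fun d hd _ => ?_⟩
  have hdS := H1.Cores.pCore_le_sylow S hd
  refine ⟨?_, Subgroup.mul_mem _ (Subgroup.inv_mem _ hd) ((H1.Cores.pCore_normal (G := G) p).conj_mem _ hd t)⟩
  have h1 : d⁻¹ * (t * d * t⁻¹) = (d⁻¹ * t * d) * t⁻¹ := by group
  rw [h1]
  exact Subgroup.mul_mem _ (StronglyClosed.conj_mem' hT hdS ht) (Subgroup.inv_mem _ ht)

/-- lifting `p'`-elements of `Aut_E(T)`. -/
theorem lift_coprime (hE : E.IsNormalIn (groupFusionSystem (S : Subgroup G)) p)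
    (hG : Subgroup.centralizer ((pCore p G : Subgroup G) : Set G) ≤ pCore p G)
    (hRT : T ⊓ pCore p G ≤ T) (hR : (T ⊓ pCore p G).Normal) {ψ : G → G} (hψ : IsIso E T T ψ)
    (hc : (orderOf hψ.aut).Coprime p) : ∃ y ∈ yg E (T ⊓ pCore p G) hRT hR p, ∀ x ∈ T, ψ x = y * x * y⁻¹ := by
  obtain ⟨hEs, hF, hinv, hext⟩ := isNormalIn_iff.1 hE
  have hS : IsPGroup p (S : Subgroup G) := S.2
  have hT := hinv.2.1
  have hTS : T ≤ (S : Subgroup G) := hT.1
  have hTp : IsPGroup p T := hS.to_le hTS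
  have hA := (sinv_of_invariant hinv).ainv
  set C := centralizerIn (S : Subgroup G) T with hC
  set Q := pCore p G with hQ
  have hQn : Q.Normal := H1.Cores.pCore_normal p
  have hQS : Q ≤ (S : Subgroup G) := H1.Cores.pCore_le_sylow S
  obtain ⟨b, hb, hb1, hb2⟩ := hext ψ hψ
  obtain ⟨-, -, g₀, hg₀⟩ := isMap_group_iff.1 hb.isMap
  obtain ⟨k, hk, m, hm, hN⟩ := exists_exponent' (p := p) (orderOf hψ.aut) (orderOf g₀) hc (orderOf_pos g₀)
  have hψg : ∀ x ∈ T, ψ x = g₀ * x * g₀⁻¹ := fun x hx => by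
    rw [← hb1 x hx, hg₀ x ((le_sup_left : T ≤ T ⊔ C) hx)]
  have hpow : ∀ j : ℕ, ∀ x : T, (((hψ.aut ^ j) x : T) : G) = g₀ ^ j * x * (g₀ ^ j)⁻¹ := by
    intro j
    induction j with
    | zero => intro x; simp
    | succ j ih =>
      intro x
      rw [pow_succ', MulAut.mul_apply, IsIso.aut_apply, hψg _ (Subtype.prop _), ih, pow_succ']
      group
  have hg1 : ∀ x ∈ T, ψ x = g₀ ^ k * x * (g₀ ^ k)⁻¹ := by
    intro x hx
    have h1 := hpow k ⟨x, hx⟩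
    rw [H87.Stancu.pow_eq_of_modEq (pow_orderOf_eq_one hψ.aut) hk, IsIso.aut_apply] at h1
    exact h1
  have hg2 : ∀ j : ℕ, ∀ c ∈ C, c⁻¹ * (g₀ ^ j * c * (g₀ ^ j)⁻¹) ∈ T ⊓ Subgroup.centralizer (T : Set G) := by
    intro j c hcC
    induction j with
    | zero =>
      have : c⁻¹ * (g₀ ^ 0 * c * (g₀ ^ 0)⁻¹) = 1 := by group
      rw [this]; exact Subgroup.one_mem _
    | succ j ih =>
      have h1 := IsIso.center (isIso_of_sub hinv.1 hψ) ih
      rw [hψg _ ih.1] at h1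
      have h2 := hb2 c hcC
      rw [hg₀ c ((le_sup_right : C ≤ T ⊔ C) hcC)] at h2
      have h3 := Subgroup.mul_mem _ h2 h1
      have h4 : c⁻¹ * (g₀ * c * g₀⁻¹) * (g₀ * (c⁻¹ * (g₀ ^ j * c * (g₀ ^ j)⁻¹)) * g₀⁻¹) =
          c⁻¹ * (g₀ ^ (j + 1) * c * (g₀ ^ (j + 1))⁻¹) := by
        rw [pow_succ']; group
      rwa [h4] at h3
  obtain ⟨g, hgdef⟩ : ∃ g, g = g₀ ^ k := ⟨_, rfl⟩
  have hgc : (orderOf g).Coprime p := by
    refine Nat.Coprime.coprime_dvd_left (orderOf_dvd_of_pow_eq_one ?_) hm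
    rw [hgdef, ← pow_mul]
    exact orderOf_dvd_iff_pow_eq_one.1 hN
  rw [← hgdef] at hg1
  have hg2' : ∀ c ∈ C, c⁻¹ * (g * c * g⁻¹) ∈ T ⊓ Subgroup.centralizer (T : Set G) := by
    intro c hc; rw [hgdef]; exact hg2 k c hc
  have hREn := inf_core_isNormal S hE.1
  have hRsc := H89.Normal.stronglyClosed_of_isNormal hREn
  have hRc := isCentric_of_stronglyClosed hRsc (centralizer_le S hG hT)
  refine ⟨g, ?_, hg1⟩
  rw [mem_yg]
  have hcT : ∀ x ∈ T, g * x * g⁻¹ ∈ T := fun x hx => by rw [← hg1 x hx]; exact hψ.mem hx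
  refine ⟨(hψ.isMap.mono hRT).congr fun x hx => hg1 x hx.1, fun d hd hdR => ?_⟩
  have hdS : d ∈ (S : Subgroup G) := hQS hd
  -- the element u
  obtain ⟨u, hu⟩ : ∃ u, u = d⁻¹ * (g * d * g⁻¹) := ⟨_, rfl⟩
  have huQ : u ∈ Q := by rw [hu]; exact Subgroup.mul_mem _ (Subgroup.inv_mem _ hd) (hQn.conj_mem _ hd g)
  -- conjugation by `u` on `T` is in `E`.
  have huE : IsMap E T (fun x => u * x * u⁻¹) := by
    have hdm : IsIso (groupFusionSystem (S : Subgroup G)) T T (fun x => d⁻¹ * x * d⁻¹⁻¹) :=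
      StronglyClosed.isMap_iso hT (isMap_conj _ hTS (Subgroup.inv_mem _ hdS)) le_rfl
    obtain ⟨l, hl, hl'⟩ := hA T ψ _ hψ.isMap hdm
    rw [hdm.eq_img] at hl
    obtain ⟨ψi, hψi, i1, i2⟩ := hψ.symm
    refine (hψi.isMap.comp' hl fun x hx => hψi.mem hx).congr fun x hx => ?_
    -- y = ψi x
    have hy := hψi.mem hx
    have hxy : x = g * ψi x * g⁻¹ := by rw [← hg1 _ hy, i2 x hx]
    have hyx : ψi x = g⁻¹ * x * g := by nth_rw 2 [hxy]; group
    -- l (ψi x), ψi x = d⁻¹ (d ψi x d⁻¹) d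
    have hz : d * ψi x * d⁻¹ ∈ T := StronglyClosed.conj_mem hT hdS hy
    have h1 := hl' _ hz
    have h2 : d⁻¹ * (d * ψi x * d⁻¹) * d⁻¹⁻¹ = ψi x := by group
    rw [h2] at h1
    rw [h1, hg1 _ hz, hyx, hu]; group
  have hufix : ∀ x ∈ T ⊓ Q, u * x * u⁻¹ = x := by
    intro x hx
    have hcx : ∀ y ∈ T ⊓ Q, d * y * d⁻¹ = y := fun y hy => by
      have := hdR y hy
      rw [mul_inv_eq_iff_eq_mul]; exact this.symm
    have h1 : g⁻¹ * x * g ∈ T ⊓ Q := by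
      have := hR.conj_mem _ hx g⁻¹
      simpa using this
    have h2 := hcx _ h1
    have h3 := hcx _ hx
    have h4 : d⁻¹ * x * d = x := by nth_rw 1 [← h3]; group
    calc u * x * u⁻¹ = d⁻¹ * (g * (d * (g⁻¹ * x * g) * d⁻¹) * g⁻¹) * d := by rw [hu]; group
      _ = d⁻¹ * x * d := by rw [h2]; group
      _ = x := h4
  obtain ⟨z, hz, hzR, hzT⟩ := exists_conj_of_eq_on' hTp hEs hRc hRT huE hufix
  -- w = z⁻¹ u
  obtain ⟨w, hw⟩ : ∃ w, w = z⁻¹ * u := ⟨_, rfl⟩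
  have hwQ : w ∈ Q := by rw [hw]; exact Subgroup.mul_mem _ (Subgroup.inv_mem _ hz.2) huQ
  have hwC : w ∈ C := by
    rw [hC, mem_centralizerIn]
    refine ⟨hQS hwQ, fun y hy => ?_⟩
    have h1 := hzT y hy
    have h2 : z⁻¹ * (u * y * u⁻¹) * z = y := by rw [h1]; group
    have h3 : w * y * w⁻¹ = y := by
      rw [hw, ← h2]
      nth_rw 1 [h2]
      calc z⁻¹ * u * y * (z⁻¹ * u)⁻¹ = z⁻¹ * (u * y * u⁻¹) * z := by group
        _ = _ := rfl
    rw [mul_inv_eq_iff_eq_mul] at h3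
    exact h3.symm
  have hw2 := hg2' w hwC
  have hw3 : w⁻¹ * (g * w * g⁻¹) ∈ T ⊓ Q :=
    ⟨hw2.1, Subgroup.mul_mem _ (Subgroup.inv_mem _ hwQ) (hQn.conj_mem _ hwQ g)⟩
  have huw : u = z * w := by rw [hw]; group
  have hu2 : u⁻¹ * (g * u * g⁻¹) ∈ T ⊓ Q := by
    have h1 : u⁻¹ * (g * u * g⁻¹) = (w⁻¹ * (z⁻¹ * (g * z * g⁻¹)) * w⁻¹⁻¹) * (w⁻¹ * (g * w * g⁻¹)) := by
      rw [huw]; group
    rw [h1]
    refine Subgroup.mul_mem _ (hR.conj_mem _ (Subgroup.mul_mem _ (Subgroup.inv_mem _ hz) (hR.conj_mem _ hz g)) _) hw3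
  -- pass to the quotient
  rw [← hu]
  have hRn : (T ⊓ Q).Normal := hR
  let π := QuotientGroup.mk' (T ⊓ Q)
  have e1 : π (u⁻¹ * (g * u * g⁻¹)) = 1 := (QuotientGroup.eq_one_iff _).2 hu2
  have e2 : π g * π u = π u * π g := by
    have h1 : π (g * u) = π (u * (u⁻¹ * (g * u * g⁻¹)) * g) := by congr 1; group
    rw [map_mul, map_mul, map_mul, e1, mul_one] at h1
    exact h1
  have e3 : π g * π d * (π g)⁻¹ = π d * π u := by
    rw [← map_mul, ← map_inv, ← map_mul, ← map_mul, hu]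
    congr 1; group
  obtain ⟨n, hn⟩ := IsPGroup.iff_card.1 (H1.Cores.isPGroup_pCore (G := G) p)
  have e4 : (π u) ^ p ^ n = 1 := by
    rw [← map_pow]
    have : u ^ p ^ n = 1 := by
      rw [← hn]
      exact congrArg Subtype.val (pow_card_eq_one' (G := pCore p G) (x := ⟨u, huQ⟩))
    rw [this, map_one]
  have e5 : (orderOf (π g)).Coprime p := Nat.Coprime.coprime_dvd_left (orderOf_map_dvd _ g) hgc
  have e6 := coprime_comm e2 e3 e5 e4
  exact (QuotientGroup.eq_one_iff _).1 e6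

end H87.Strict
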