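import Cfsg.Agent.Lib.H87.Strict2
set_option autoImplicit false

open Cfsg Cfsg.FusionSystem

namespace H87.Strict
open H87.Base H87.Basic H87.Syl H87.Sat H87.Grow H87.Inv H87.Frat H87.PPow H87.CMap H87.Bridge H87.ConstrEq H87.Grp

variable {G : Type*} [Group G] {Q R D T H : Subgroup G} {p : ℕ} [Finite G] [Fact p.Prime] (S : Sylow p G)
  {E : FusionSystem T}

/-- lifting `Aut_E(T)` to `Y`. -/
theorem lift_top (hE : E.IsNormalIn (groupFusionSystem (S : Subgroup G)) p)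
    (hG : Subgroup.centralizer ((pCore p G : Subgroup G) : Set G) ≤ pCore p G)
    (hRT : T ⊓ pCore p G ≤ T) (hR : (T ⊓ pCore p G).Normal) {ψ : G → G} (hψ : IsIso E T T ψ) :
    ∃ y ∈ yg E (T ⊓ pCore p G) hRT hR p, ∀ x ∈ T, ψ x = y * x * y⁻¹ := by
  obtain ⟨hEs, hF, hinv, hext⟩ := isNormalIn_iff.1 hE
  have hS : IsPGroup p (S : Subgroup G) := S.2
  have hT := hinv.2.1
  have hTS : T ≤ (S : Subgroup G) := hT.1
  have hTp : IsPGroup p T := hS.to_le hTS
  have hle : E.autGroup T ≤ autInducedBy (yg E (T ⊓ pCore p G) hRT hR p) T := by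
    refine H88.Focal.autGroup_eq_of_fullyAutomized
      (H86.FusSat.fullyNormalized_spec hTp hEs (H86.FusSat.fullyNormalized_self E)).2 ?_ ?_
    · exact autInducedBy_map_mono (le_yg S hT hRT hR)
    · intro α hα hc
      have hi := isIso_of_mem_autGroup le_rfl hα
      have hia : hi.aut = α := by
        ext ⟨x, hx⟩
        rw [IsIso.aut_apply, extFun_apply _ hx]
        rfl
      obtain ⟨y, hy, hy'⟩ := lift_coprime S hE hG hRT hR hi (by rw [hia]; exact hc)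
      refine mem_autInducedBy.2 ⟨y, hy, fun x => ?_⟩
      rw [← hy' x x.2, extFun_coe]; rfl
  obtain ⟨y, hy, hy'⟩ := mem_autInducedBy.1 (hle hψ.aut_mem)
  exact ⟨y, hy, fun x hx => by rw [← hy' ⟨x, hx⟩, IsIso.aut_apply]⟩

/-- `Aut_E(R) = Aut_Y(R)`. -/
theorem lift_R (hE : E.IsNormalIn (groupFusionSystem (S : Subgroup G)) p)
    (hG : Subgroup.centralizer ((pCore p G : Subgroup G) : Set G) ≤ pCore p G)
    (hRT : T ⊓ pCore p G ≤ T) (hR : (T ⊓ pCore p G).Normal) {f : G → G} (hf : IsMap E (T ⊓ pCore p G) f) :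
    ∃ y ∈ yg E (T ⊓ pCore p G) hRT hR p, ∀ x ∈ T ⊓ pCore p G, f x = y * x * y⁻¹ := by
  obtain ⟨hEs, hF, hinv, hext⟩ := isNormalIn_iff.1 hE
  have hS : IsPGroup p (S : Subgroup G) := S.2
  have hT := hinv.2.1
  have hTS : T ≤ (S : Subgroup G) := hT.1
  have hTp : IsPGroup p T := hS.to_le hTS
  set R := T ⊓ pCore p G with hRdef
  set Y := yg E R hRT hR p with hY
  have hYn : Y.Normal := yg_normal S (sinv_of_invariant hinv) hTS hRT hR
  have hREn := inf_core_isNormal S hE.1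
  have hRsc := H89.Normal.stronglyClosed_of_isNormal hREn
  have hn := nice_of_fn hTp hEs (CMap.fullyNormalized_of_stronglyClosed hRsc)
  have hfi : IsIso E R R f := StronglyClosed.isMap_iso hRsc hf le_rfl
  have hAY : autInducedBy Y R ≤ E.autGroup R := by
    intro α hα
    obtain ⟨y, hy, hy'⟩ := mem_autInducedBy.1 hα
    exact mem_autGroup_of_isMap hRT (mem_yg.1 hy).1 hy'
  have hsyl := ((isFullyAutomized_iff.1 hn.1).2).of_le (autInducedBy_map_mono (le_yg S hT hRT hR)) hAY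
  have hfinA : Finite (MulAut R) := finite_mulAut
  have hnorm : ∀ a ∈ E.autGroup R, ∀ n ∈ autInducedBy Y R, a * n * a⁻¹ ∈ autInducedBy Y R := by
    intro a ha n hn
    obtain ⟨y, hy, hy'⟩ := mem_autInducedBy.1 hn
    have ha' := isMap_of_sub hinv.1 (isIso_of_mem_autGroup hRT ha).isMap
    obtain ⟨-, -, c, hc⟩ := isMap_group_iff.1 ha'
    have hac : ∀ x : R, ((a x : R) : G) = c * x * c⁻¹ := fun x => by
      rw [← hc x x.2, extFun_coe]; rfl
    refine mem_autInducedBy.2 ⟨c * y * c⁻¹, hYn.conj_mem y hy c, fun x => ?_⟩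
    have h1 : (x : G) = c * ((a⁻¹ x : R) : G) * c⁻¹ := by rw [← hac, MulAut.apply_inv_self]
    have h2 : ((a⁻¹ x : R) : G) = c⁻¹ * x * c := by
      calc ((a⁻¹ x : R) : G) = c⁻¹ * (c * ((a⁻¹ x : R) : G) * c⁻¹) * c := by group
        _ = c⁻¹ * x * c := by rw [← h1]
    rw [MulAut.mul_apply, MulAut.mul_apply, hac, hy', h2]
    group
  obtain ⟨n, hnY, hn2⟩ := hsyl.frattini hAY hnorm hfi.aut_mem
  obtain ⟨y', hy'Y, hy'⟩ := mem_autInducedBy.1 hnY
  -- the automorphism n * a extends to T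
  have hna : n * hfi.aut ∈ E.autGroup R := Subgroup.mul_mem _ (hAY hnY) hfi.aut_mem
  have hnai := isIso_of_mem_autGroup hRT hna
  obtain ⟨k, hk⟩ : ∃ k, k = extFun (R.subtype.comp (n * hfi.aut).toMonoidHom) := ⟨_, rfl⟩
  rw [← hk] at hnai
  have hkx : ∀ x (hx : x ∈ R), k x = (((n * hfi.aut) ⟨x, hx⟩ : R) : G) := fun x hx => by
    rw [hk, extFun_apply _ hx]; rfl
  obtain ⟨g, hg, hgk⟩ := (isReceptive_iff.1 hn.2).2 R k hnai
  have hle : T ≤ nphi T R k := by
    intro t ht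
    have htn := H89.Normal.le_normalizer_of_isNormal hREn ht
    rw [mem_nphi]
    let ct : MulAut R := R.normalizerMonoidHom ⟨t, htn⟩
    have hct : ∀ x : R, ((ct x : R) : G) = t * x * t⁻¹ := fun x => rfl
    have h1 : ct ∈ autInducedBy T R := mem_autInducedBy.2 ⟨t, ht, hct⟩
    obtain ⟨s, hs, hs'⟩ := mem_autInducedBy.1 ((hn2 ct).1 h1)
    refine ⟨ht, htn, s, hs, fun x hx => ?_⟩
    have h2 := hs' ((n * hfi.aut) ⟨x, hx⟩)
    rw [MulAut.mul_apply, MulAut.mul_apply, MulAut.inv_apply_self] at h2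
    rw [hkx x hx, ← h2, hkx _ (conj_mem_of_mem_normalizer htn hx)]
    rfl
  have hgT := hg.mono hle
  have hgi : IsIso E T T g := isIso_of_self hgT fun x hx => hgT.mem hx
  obtain ⟨y, hyY, hy⟩ := lift_top S hE hG hRT hR hgi
  refine ⟨y'⁻¹ * y, Subgroup.mul_mem _ (Subgroup.inv_mem _ hy'Y) hyY, fun x hx => ?_⟩
  have h1 := hy x hx.1
  rw [hgk x hx, hkx x hx, MulAut.mul_apply, hy', IsIso.aut_apply] at h1
  have h2 : f x = y'⁻¹ * (y * x * y⁻¹) * y' := by rw [← h1]; group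
  rw [h2]; group

/-- `S ∩ Y = T C_Y(R)`. -/
theorem exists_mem_T (hE : E.IsNormalIn (groupFusionSystem (S : Subgroup G)) p)
    (hRT : T ⊓ pCore p G ≤ T) (hR : (T ⊓ pCore p G).Normal) {s : G} (hs : s ∈ (S : Subgroup G))
    (hsY : s ∈ yg E (T ⊓ pCore p G) hRT hR p) :
    ∃ t ∈ T, ∀ x ∈ T ⊓ pCore p G, x * (t⁻¹ * s) = (t⁻¹ * s) * x := by
  obtain ⟨hEs, hF, hinv, hext⟩ := isNormalIn_iff.1 hE
  have hS : IsPGroup p (S : Subgroup G) := S.2
  have hT := hinv.2.1
  have hTS : T ≤ (S : Subgroup G) := hT.1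
  have hTp : IsPGroup p T := hS.to_le hTS
  set R := T ⊓ pCore p G with hRdef
  set Y := yg E R hRT hR p with hY
  have hREn := inf_core_isNormal S hE.1
  have hRsc := H89.Normal.stronglyClosed_of_isNormal hREn
  have hn := nice_of_fn hTp hEs (CMap.fullyNormalized_of_stronglyClosed hRsc)
  have hAY : autInducedBy ((S : Subgroup G) ⊓ Y) R ≤ E.autGroup R := by
    intro α hα
    obtain ⟨y, hy, hy'⟩ := mem_autInducedBy.1 hα
    exact mem_autGroup_of_isMap hRT (mem_yg.1 hy.2).1 hy'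
  have hpg : IsPGroup p (autInducedBy ((S : Subgroup G) ⊓ Y) R) :=
    isPGroup_autInducedBy (hS.to_le inf_le_left)
  have hsyl := (isFullyAutomized_iff.1 hn.1).2
  have heq := hsyl.max _ hAY hpg (autInducedBy_map_mono (le_inf hTS (le_yg S hT hRT hR)))
  have hsn : s ∈ Subgroup.normalizer (R : Set G) := by
    rw [Subgroup.normalizer_eq_top_iff.2 hR]; exact Subgroup.mem_top s
  let cs : MulAut R := R.normalizerMonoidHom ⟨s, hsn⟩
  have hcs : ∀ x : R, ((cs x : R) : G) = s * x * s⁻¹ := fun x => rfl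
  have h1 : cs ∈ autInducedBy ((S : Subgroup G) ⊓ Y) R := mem_autInducedBy.2 ⟨s, ⟨hs, hsY⟩, hcs⟩
  rw [heq] at h1
  obtain ⟨t, ht, ht'⟩ := mem_autInducedBy.1 h1
  refine ⟨t, ht, fun x hx => ?_⟩
  have h2 : s * x * s⁻¹ = t * x * t⁻¹ := by rw [← ht' ⟨x, hx⟩, hcs]
  have h3 : t⁻¹ * (s * x * s⁻¹) * s = x * (t⁻¹ * s) := by rw [h2]; group
  rw [← h3]; group

/-- elements of `O^p(Y)` in `S` lie in `T`. -/
theorem residual_inf_le (hE : E.IsNormalIn (groupFusionSystem (S : Subgroup G)) p)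
    (hG : Subgroup.centralizer ((pCore p G : Subgroup G) : Set G) ≤ pCore p G)
    (hRT : T ⊓ pCore p G ≤ T) (hR : (T ⊓ pCore p G).Normal) :
    (S : Subgroup G) ⊓ (pResidual p (yg E (T ⊓ pCore p G) hRT hR p)).map
      (yg E (T ⊓ pCore p G) hRT hR p).subtype ≤ T := by
  obtain ⟨hEs, hF, hinv, hext⟩ := isNormalIn_iff.1 hE
  have hS : IsPGroup p (S : Subgroup G) := S.2
  have hT := hinv.2.1
  have hTS : T ≤ (S : Subgroup G) := hT.1
  set R := T ⊓ pCore p G with hRdef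
  set Y := yg E R hRT hR p with hY
  have hYn : Y.Normal := yg_normal S (sinv_of_invariant hinv) hTS hRT hR
  have hsyl := sylIn_inf_normal S Y
  have hPY := hsyl.coe_toSylow
  have h1 : (groupFusionSystem (hsyl.toSylow : Subgroup Y)).hyperfocalSubgroup p ≤ T.subgroupOf Y := by
    refine H88.Focal.hyp_le_of fun P hP α hα hc x => ?_
    have hm := (isIso_of_mem_autGroup hP hα).isMap
    obtain ⟨-, -, y, hy⟩ := isMap_group_iff.1 hm
    have hy' : (α x : Y) = y * x * y⁻¹ := by rw [← hy x x.2, extFun_coe]; rfl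
    rw [Subgroup.mem_subgroupOf, hy']
    have hxS : ((x : Y) : G) ∈ (S : Subgroup G) := by
      have := hP x.2
      rw [hPY, Subgroup.mem_subgroupOf] at this
      exact this.1
    have hyxS : (y : G) * ((x : Y) : G) * (y : G)⁻¹ ∈ (S : Subgroup G) := by
      have := hP (α x).2
      rw [hy', hPY, Subgroup.mem_subgroupOf] at this
      exact this.1
    obtain ⟨t, ht, htc⟩ := exists_mem_T S hE hRT hR hxS (x : Y).2
    have htY : t ∈ Y := le_yg S hT hRT hR ht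
    obtain ⟨z, hz⟩ : ∃ z, z = t⁻¹ * ((x : Y) : G) := ⟨_, rfl⟩
    rw [← hz] at htc
    have hzY : z ∈ Y := by rw [hz]; exact Subgroup.mul_mem _ (Subgroup.inv_mem _ htY) (x : Y).2
    have hzQ : z ∈ pCore p G := yg_centralizer_le hG hRT hR inf_le_right hzY htc
    have hxz : ((x : Y) : G) = t * z := by rw [hz]; group
    have hyzQ : (y : G) * z * (y : G)⁻¹ ∈ pCore p G := (H1.Cores.pCore_normal (G := G) p).conj_mem _ hzQ _
    have hyz : z⁻¹ * ((y : G) * z * (y : G)⁻¹) ∈ T := ((mem_yg.1 y.2).2 z hzQ htc).1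
    have hytS : (y : G) * t * (y : G)⁻¹ ∈ (S : Subgroup G) := by
      have h2 : (y : G) * t * (y : G)⁻¹ = ((y : G) * ((x : Y) : G) * (y : G)⁻¹) * ((y : G) * z * (y : G)⁻¹)⁻¹ := by
        rw [hxz]; group
      rw [h2]
      exact Subgroup.mul_mem _ hyxS (Subgroup.inv_mem _ (H1.Cores.pCore_le_sylow S hyzQ))
    have hytT := sc_mem S hT ht hytS
    have h3 : (((x : Y)⁻¹ * (y * x * y⁻¹) : Y) : G) = (z⁻¹ * (t⁻¹ * ((y : G) * t * (y : G)⁻¹)) * z) *
        (z⁻¹ * ((y : G) * z * (y : G)⁻¹)) := by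
      push_cast
      rw [hxz]; group
    rw [h3]
    refine Subgroup.mul_mem _ ?_ hyz
    exact StronglyClosed.conj_mem' hT (H1.Cores.pCore_le_sylow S hzQ)
      (Subgroup.mul_mem _ (Subgroup.inv_mem _ ht) hytT)
  rw [H88.FocalGroup.hyp_eq] at h1
  rintro x ⟨hxS, y, hy, rfl⟩
  have h2 : y ∈ (hsyl.toSylow : Subgroup Y) ⊓ pResidual p Y := by
    refine ⟨?_, hy⟩
    show y ∈ (hsyl.toSylow : Subgroup Y)
    rw [hPY, Subgroup.mem_subgroupOf]
    exact ⟨hxS, y.2⟩
  exact h1 h2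

/-- the fusion system of a normal subgroup with Sylow subgroup `T` is normal. -/
theorem sub_isNormalIn {H : Subgroup G} [H.Normal] (hT : (S : Subgroup G) ⊓ H = T) (hTH : T ≤ H) :
    (fusionSystemOfSubgroup H T hTH).IsNormalIn (groupFusionSystem (S : Subgroup G)) p := by
  subst hT
  exact normal_isNormalIn S H

end H87.Strict
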