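import Cfsg.Agent.Lib.H87.Strict3
set_option autoImplicit false

open Cfsg Cfsg.FusionSystem

namespace H87.Strict
open H87.Base H87.Basic H87.Syl H87.Sat H87.Grow H87.Inv H87.Frat H87.PPow H87.CMap H87.Bridge H87.ConstrEq H87.Grp

variable {G : Type*} [Group G] {Q R D T H : Subgroup G} {p : ℕ} [Finite G] [Fact p.Prime] (S : Sylow p G)
  {E : FusionSystem T}

/-- `O^p(Y)` as a subgroup of `G`. -/
def kg (Y : Subgroup G) (p : ℕ) : Subgroup G := (pResidual p Y).map Y.subtype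

omit [Finite G] [Fact p.Prime] in
theorem kg_le (Y : Subgroup G) : kg Y p ≤ Y := Subgroup.map_subtype_le _

omit [Finite G] [Fact p.Prime] in
theorem kg_normal {Y : Subgroup G} (hY : Y.Normal) : (kg Y p).Normal := by
  have : (pResidual p Y).Characteristic := H2.Residual.pResidual_characteristic
  exact ConjAct.normal_of_characteristic_of_normal

omit [Finite G] [Fact p.Prime] in
theorem kg_le_of {Y N : Subgroup G} (h : ∀ y ∈ Y, (orderOf y).Coprime p → y ∈ N) : kg Y p ≤ N := by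
  rw [kg, Subgroup.map_le_iff_le_comap, pResidual, Subgroup.closure_le]
  intro y hy
  refine h y y.2 ?_
  rw [Subgroup.orderOf_coe]
  exact hy

omit [Finite G] [Fact p.Prime] in
theorem mem_kg {Y : Subgroup G} {y : G} (hy : y ∈ Y) (hc : (orderOf y).Coprime p) : y ∈ kg Y p := by
  refine ⟨⟨y, hy⟩, H2.Residual.mem_residual_of_coprime ?_, rfl⟩
  rwa [Subgroup.orderOf_mk]

/-- `Y = O^p(Y) P` for a Sylow subgroup `P` of `Y`. -/
theorem exists_kg_mul {Y P : Subgroup G} (hP : SylIn p P Y) (hY : Y.Normal) {y : G} (hy : y ∈ Y) :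
    ∃ k ∈ kg Y p, ∃ s ∈ P, y = k * s := by
  have h1 := H2.Residual.sylow_sup_residual hP.toSylow
  have h2 : (⟨y, hy⟩ : Y) ∈ (hP.toSylow : Subgroup Y) ⊔ pResidual p Y := by rw [h1]; exact Subgroup.mem_top _
  have hn : (pResidual p Y).Normal := by
    have : (pResidual p Y).Characteristic := H2.Residual.pResidual_characteristic
    infer_instance
  rw [sup_comm, Subgroup.mem_sup_of_normal_left] at h2
  obtain ⟨k, hk, s, hs, e⟩ := h2
  rw [hP.coe_toSylow, Subgroup.mem_subgroupOf] at hs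
  exact ⟨k, ⟨k, hk, rfl⟩, s, hs, (congrArg Subtype.val e).symm⟩

/-- S5121. -/
theorem main (hE : E.IsNormalIn (groupFusionSystem (S : Subgroup G)) p)
    (hG : Subgroup.centralizer ((pCore p G : Subgroup G) : Set G) ≤ pCore p G) :
    ∃ H : Subgroup G, (∃ hTH : T ≤ H, H.Normal ∧ (∃ R : Sylow p H, (R : Subgroup H) = T.subgroupOf H) ∧
      ∀ P : Subgroup G, E.Hom P = (fusionSystemOfSubgroup H T hTH).Hom P) ∧
      ∀ H' : Subgroup G, (∃ hTH' : T ≤ H', H'.Normal ∧ (∃ R : Sylow p H', (R : Subgroup H') = T.subgroupOf H') ∧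
        ∀ P : Subgroup G, E.Hom P = (fusionSystemOfSubgroup H' T hTH').Hom P) → H' = H := by
  obtain ⟨hEs, hF, hinv, hext⟩ := isNormalIn_iff.1 hE
  have hS : IsPGroup p (S : Subgroup G) := S.2
  have hT := hinv.2.1
  have hTS : T ≤ (S : Subgroup G) := hT.1
  have hR : (T ⊓ pCore p G).Normal := inf_core_normal S hT
  have hRT : T ⊓ pCore p G ≤ T := inf_le_left
  obtain ⟨Q, hQ⟩ : ∃ Q, Q = pCore p G := ⟨_, rfl⟩
  have hQS : Q ≤ (S : Subgroup G) := by rw [hQ]; exact H1.Cores.pCore_le_sylow S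
  have hQn : Q.Normal := by rw [hQ]; exact H1.Cores.pCore_normal p
  have hYn : (yg E _ hRT hR p).Normal := yg_normal S (sinv_of_invariant hinv) hTS hRT hR
  have hTY := le_yg (E := E) S hT hRT hR
  have hmt : ∀ s, s ∈ (S : Subgroup G) → s ∈ yg E _ hRT hR p →
      ∃ t ∈ T, ∀ x ∈ T ⊓ pCore p G, x * (t⁻¹ * s) = (t⁻¹ * s) * x := fun s h1 h2 => exists_mem_T S hE hRT hR h1 h2
  have hYQ : ∀ g ∈ yg E _ hRT hR p, (∀ x ∈ T ⊓ pCore p G, x * g = g * x) → g ∈ Q := by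
    rw [hQ]
    exact fun g hg h => yg_centralizer_le hG hRT hR inf_le_right hg h
  have hres := residual_inf_le S hE hG hRT hR
  have hlift : ∀ f, IsMap E (T ⊓ pCore p G) f → ∃ y ∈ yg E _ hRT hR p, ∀ x ∈ T ⊓ pCore p G, f x = y * x * y⁻¹ :=
    fun f hf => lift_R S hE hG hRT hR hf
  have hYX : ∀ g, g ∈ yg E _ hRT hR p ↔ IsMap E (T ⊓ pCore p G) (fun x => g * x * g⁻¹) ∧
    ∀ d ∈ pCore p G, (∀ x ∈ T ⊓ pCore p G, x * d = d * x) → d⁻¹ * (g * d * g⁻¹) ∈ T ⊓ pCore p G := fun g => mem_yg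
  have hREn := inf_core_isNormal S hE.1
  have hRc := centralizer_le S hG hT
  obtain ⟨Y, hY⟩ : ∃ Y, Y = yg E _ hRT hR p := ⟨_, rfl⟩
  rw [← hY] at hYn hTY hYQ hlift hYX hmt
  have hres' : (S : Subgroup G) ⊓ kg Y p ≤ T := by rw [hY]; exact hres
  clear hres hY
  rw [← hQ] at hYQ hlift hYX hmt hREn hRc hR hRT
  obtain ⟨K, hK⟩ : ∃ K, K = kg Y p := ⟨_, rfl⟩
  have hKY : K ≤ Y := by rw [hK]; exact kg_le Y
  have hKn : K.Normal := by rw [hK]; exact kg_normal hYn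
  have hSY := sylIn_inf_normal S Y
  have hYK : ∀ y ∈ Y, ∃ k ∈ K, ∃ s ∈ (S : Subgroup G) ⊓ Y, y = k * s := by
    intro y hy
    rw [hK]
    exact exists_kg_mul hSY hYn hy
  rw [← hK] at hres'
  -- the subgroup `H = K T`
  have hHn : (K ⊔ T).Normal := by
    refine ⟨?_⟩
    have hTc : ∀ g : G, ∀ t ∈ T, g * t * g⁻¹ ∈ K ⊔ T := by
      intro g t ht
      obtain ⟨n, hn, hn'⟩ := hSY.frattini (A := ⊤) le_top (fun a _ n hn => hYn.conj_mem n hn a) (Subgroup.mem_top g)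
      have h1 : (n * g) * t * (n * g)⁻¹ ∈ T := sc_mem S hT ht ((hn' t).1 ⟨hTS ht, hTY ht⟩).1
      obtain ⟨k, hk, s, hs, e⟩ := hYK _ (Subgroup.inv_mem _ hn)
      have h2 : g * t * g⁻¹ = n⁻¹ * ((n * g) * t * (n * g)⁻¹) * n := by group
      have h3 : n = s⁻¹ * k⁻¹ := by rw [← mul_inv_rev, ← e, inv_inv]
      rw [h2, e, h3]
      have h4 : s * (s⁻¹ * k⁻¹ * g * t * (s⁻¹ * k⁻¹ * g)⁻¹) * s⁻¹ ∈ T := by
        rw [h3] at h1
        exact StronglyClosed.conj_mem hT hs.1 h1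
      have h5 : k * s * (s⁻¹ * k⁻¹ * g * t * (s⁻¹ * k⁻¹ * g)⁻¹) * (s⁻¹ * k⁻¹) =
        k * (s * (s⁻¹ * k⁻¹ * g * t * (s⁻¹ * k⁻¹ * g)⁻¹) * s⁻¹) * k⁻¹ := by group
      rw [h5]
      exact Subgroup.mul_mem _ (Subgroup.mul_mem _ ((le_sup_left : K ≤ _) hk) ((le_sup_right : T ≤ _) h4))
        (Subgroup.inv_mem _ ((le_sup_left : K ≤ _) hk))
    intro x hx g
    rw [Subgroup.mem_sup_of_normal_left] at hx
    obtain ⟨k, hk, t, ht, rfl⟩ := hx
    have h1 : g * (k * t) * g⁻¹ = (g * k * g⁻¹) * (g * t * g⁻¹) := by group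
    rw [h1]
    exact Subgroup.mul_mem _ ((le_sup_left : K ≤ _) (hKn.conj_mem k hk g)) (hTc g t ht)
  have hHS : (S : Subgroup G) ⊓ (K ⊔ T) = T := by
    refine le_antisymm ?_ (le_inf hTS le_sup_right)
    rintro x ⟨hxS, hx⟩
    have hx' : x ∈ K ⊔ T := hx
    rw [Subgroup.mem_sup_of_normal_left] at hx'
    obtain ⟨k, hk, t, ht, rfl⟩ := hx'
    refine Subgroup.mul_mem _ (hres' ⟨?_, hk⟩) ht
    have h1 : k = (k * t) * t⁻¹ := by group
    rw [h1]
    exact Subgroup.mul_mem _ hxS (Subgroup.inv_mem _ (hTS ht))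
  have hHY : K ⊔ T ≤ Y := sup_le hKY hTY
  have hHsyl : SylIn p T (K ⊔ T) := by
    have := sylIn_inf_normal S (K ⊔ T)
    rwa [hHS] at this
  have hTH : T ≤ K ⊔ T := le_sup_right
  have hE' := sub_isNormalIn S (H := K ⊔ T) hHS hTH
  obtain ⟨hEs', -, hinv', -⟩ := isNormalIn_iff.1 hE'
  have hREn' : (fusionSystemOfSubgroup (K ⊔ T) T hTH).IsNormal (T ⊓ Q) := by
    rw [isNormal_iff]
    refine ⟨hRT, fun P f hf => ?_⟩
    obtain ⟨hP, hfT, g, hg, hg'⟩ := isMap_sub_iff.1 hf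
    refine ⟨fun x => g * x * g⁻¹, isMap_sub (sup_le hP hRT) hg fun x hx => ?_, fun x hx => (hg' x hx).symm,
      fun x hx => hR.conj_mem x hx g⟩
    rw [Subgroup.mem_sup_of_normal_right] at hx
    obtain ⟨y, hy, z, hz, rfl⟩ := hx
    have h1 : g * (y * z) * g⁻¹ = (g * y * g⁻¹) * (g * z * g⁻¹) := by group
    rw [h1]
    refine Subgroup.mul_mem _ ?_ (hR.conj_mem z hz g).1
    rw [← hg' y hy]; exact hfT y hy
  have heq : ∀ P, E.Hom P = (fusionSystemOfSubgroup (K ⊔ T) T hTH).Hom P := by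
    have hle1 : E ≤ fusionSystemOfSubgroup (K ⊔ T) T hTH := by
      refine le_of_aut_normal hS hTS hEs hEs' hinv.1 hinv'.1 (sinv_of_invariant hinv') hREn hREn' hRc fun f hf => ?_
      obtain ⟨y, hy, hfy⟩ := hlift f hf
      obtain ⟨k, hk, s, hs, e⟩ := hYK y hy
      obtain ⟨t, ht, htc⟩ := hmt s hs.1 hs.2
      rw [isMap_sub_iff]
      refine ⟨hRT, fun x hx => hf.mem hx, k * t, Subgroup.mul_mem _ ((le_sup_left : K ≤ _) hk) ((le_sup_right : T ≤ _) ht),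
        fun x hx => ?_⟩
      rw [hfy x hx, e]
      have h1 := htc x hx
      have h2 : s * x * s⁻¹ = t * x * t⁻¹ := by
        calc s * x * s⁻¹ = t * ((t⁻¹ * s) * x) * s⁻¹ := by group
          _ = t * (x * (t⁻¹ * s)) * s⁻¹ := by rw [h1]
          _ = t * x * t⁻¹ := by group
      calc k * s * x * (k * s)⁻¹ = k * (s * x * s⁻¹) * k⁻¹ := by group
        _ = k * t * x * (k * t)⁻¹ := by rw [h2]; group
    have hle2 : fusionSystemOfSubgroup (K ⊔ T) T hTH ≤ E := by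
      refine le_of_aut_normal hS hTS hEs' hEs hinv'.1 hinv.1 (sinv_of_invariant hinv) hREn' hREn hRc fun f hf => ?_
      obtain ⟨hP, hfT, g, hg, hg'⟩ := isMap_sub_iff.1 hf
      exact ((hYX g).1 (hHY hg)).1.congr fun x hx => (hg' x hx).symm
    exact fun P => Set.Subset.antisymm (hle1 P) (hle2 P)
  refine ⟨K ⊔ T, ⟨hTH, hHn, (sylIn_iff hTH).1 hHsyl, heq⟩, ?_⟩
  rintro H' ⟨hTH', hH'n, hH'syl, hH'eq⟩
  have hH's := (sylIn_iff hTH').2 hH'syl
  have hSH' : (S : Subgroup G) ⊓ H' = T := by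
    have h1 := sylIn_inf_normal S H'
    exact hH's.max _ h1.le h1.isP (le_inf hTS hTH')
  have hmapeq : ∀ P f, IsMap E P f ↔ IsMap (fusionSystemOfSubgroup H' T hTH') P f := by
    intro P f
    constructor
    · rintro ⟨φ, hφ, e⟩; exact ⟨φ, by rw [← hH'eq]; exact hφ, e⟩
    · rintro ⟨φ, hφ, e⟩; exact ⟨φ, by rw [hH'eq]; exact hφ, e⟩
  have hH'Y : H' ≤ Y := by
    intro h hh
    rw [hYX]
    refine ⟨?_, fun d hd _ => ?_⟩
    · rw [hmapeq]
      exact isMap_sub hRT hh fun x hx => (hR.conj_mem x hx h).1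
    · have h1 : d⁻¹ * (h * d * h⁻¹) ∈ Q := Subgroup.mul_mem _ (Subgroup.inv_mem _ hd) (hQn.conj_mem d hd h)
      refine ⟨?_, h1⟩
      rw [← hSH']
      refine ⟨hQS h1, ?_⟩
      have h2 : d⁻¹ * (h * d * h⁻¹) = (d⁻¹ * h * d⁻¹⁻¹) * h⁻¹ := by group
      rw [h2]
      exact Subgroup.mul_mem _ (hH'n.conj_mem h hh _) (Subgroup.inv_mem _ hh)
  refine le_antisymm ?_ ?_
  · -- H' ≤ K T
    intro h hh
    obtain ⟨k, hk, t, ht, rfl⟩ := exists_kg_mul hH's hH'n hh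
    refine Subgroup.mul_mem _ ((le_sup_left : K ≤ _) ?_) ((le_sup_right : T ≤ _) ht)
    have hle : kg H' p ≤ K := kg_le_of fun y hy hc => by rw [hK]; exact mem_kg (hH'Y hy) hc
    exact hle hk
  · refine sup_le ?_ hTH'
    rw [hK]
    refine kg_le_of fun y hy hc => ?_
    have h1 := ((hYX y).1 hy).1
    rw [hmapeq] at h1
    obtain ⟨-, -, h, hh, hh'⟩ := isMap_sub_iff.1 h1
    have hq : h⁻¹ * y ∈ Q := by
      refine hYQ _ (Subgroup.mul_mem _ (Subgroup.inv_mem _ (hH'Y hh)) hy) fun x hx => ?_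
      have h2 : y * x * y⁻¹ = h * x * h⁻¹ := hh' x hx
      calc x * (h⁻¹ * y) = h⁻¹ * (h * x * h⁻¹) * y := by group
        _ = (h⁻¹ * y) * x := by rw [← h2]; group
    have hn' := hH'n
    let π := QuotientGroup.mk' H'
    have e1 : π y = π (h⁻¹ * y) := by
      rw [map_mul, map_inv]
      have : π h = 1 := (QuotientGroup.eq_one_iff _).2 hh
      rw [this]; group
    obtain ⟨n, hn⟩ := IsPGroup.iff_card.1 (H1.Cores.isPGroup_pCore (G := G) p)
    have e2 : (π y) ^ p ^ n = 1 := by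
      rw [e1, ← map_pow]
      have : (h⁻¹ * y) ^ p ^ n = 1 := by
        rw [← hn]
        exact congrArg Subtype.val (pow_card_eq_one' (G := pCore p G) (x := ⟨h⁻¹ * y, by rw [← hQ]; exact hq⟩))
      rw [this, map_one]
    have e3 : orderOf (π y) = 1 := by
      refine Nat.eq_one_of_dvd_coprimes (Nat.Coprime.pow_right n hc) ?_
        (orderOf_dvd_of_pow_eq_one e2)
      exact orderOf_map_dvd π y
    rw [orderOf_eq_one_iff] at e3
    exact (QuotientGroup.eq_one_iff _).1 e3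

end H87.Strict
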